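import Cfsg.Agent.H616.GalFam
import Cfsg.Agent.Blocks.ExistsModular

/-!
# Cyclotomic integers and the arithmetic-geometric mean bound

`Zc q` is the ring generated by the `q`-th roots of unity.
-/

set_option autoImplicit false

open Cfsg Cfsg.Agent.H616
open scoped ComplexConjugate

namespace Cfsg.Agent.H657.TIB

/-- The ring generated by the `q`-th roots of unity. -/
def Zc (q : ℕ) : Subalgebra ℤ ℂ := Algebra.adjoin ℤ {z : ℂ | z ^ q = 1}

theorem root_mem_Zc {q : ℕ} {z : ℂ} (hz : z ^ q = 1) : z ∈ Zc q :=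
  Algebra.subset_adjoin hz

theorem root_mem_Zc_of_dvd {q n : ℕ} (hn : n ∣ q) {z : ℂ} (hz : z ^ n = 1) : z ∈ Zc q := by
  obtain ⟨m, rfl⟩ := hn
  exact root_mem_Zc (by rw [pow_mul, hz, one_pow])

theorem int_mem_Zc (q : ℕ) (n : ℤ) : (n : ℂ) ∈ Zc q := by
  have := (Zc q).algebraMap_mem n
  exact this

theorem exists_galFam {q : ℕ} (hq : q ≠ 0) {x : ℂ} (hx : x ∈ Zc q) :
    ∃ F : ℕ → ℂ, GalFam q F ∧ F 1 = x := by
  unfold Zc at hx
  induction hx using Algebra.adjoin_induction with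
  | mem x hx => exact ⟨fun k => x ^ k, galFam_root hq hx, pow_one x⟩
  | algebraMap n => exact ⟨fun _ => (n : ℂ), galFam_intCast n, by simp⟩
  | add x y _ _ hx hy =>
    obtain ⟨F, hF, rfl⟩ := hx
    obtain ⟨F', hF', rfl⟩ := hy
    exact ⟨_, hF.add hF', rfl⟩
  | mul x y _ _ hx hy =>
    obtain ⟨F, hF, rfl⟩ := hx
    obtain ⟨F', hF', rfl⟩ := hy
    exact ⟨_, hF.mul hF', rfl⟩

/-- **The arithmetic-geometric mean bound**: if the sum of the squares of the absolute values of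
finitely many cyclotomic integers is the natural number `r`, then at most `r` of them are
nonzero. -/
theorem card_ne_zero_le {ι : Type*} [Fintype ι] {q : ℕ} (hq : q ≠ 0) (a : ι → ℂ)
    (ha : ∀ i, a i ∈ Zc q) (r : ℕ) (hr : ∑ i, ‖a i‖ ^ 2 = (r : ℝ)) :
    Nat.card {i // a i ≠ 0} ≤ r := by
  classical
  have : NeZero q := ⟨hq⟩
  choose F hF hF1 using fun i => exists_galFam hq (ha i)
  obtain ⟨M, hM⟩ := Blocks.ExistsModular.exists_isPModular Nat.prime_two
  have hsum : ∀ u : (ZMod q)ˣ, ∑ i, ‖F i (u : ZMod q).val‖ ^ 2 = (r : ℝ) := by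
    intro u
    obtain ⟨σ, hσ⟩ := Cfsg.Agent.Characters.GaloisBasic.exists_ringEquiv_pow hq
      (ZMod.val_coe_unit_coprime u)
    have h1 : ∀ i, ((‖F i (u : ZMod q).val‖ ^ 2 : ℝ) : ℂ) = σ (((‖a i‖ ^ 2 : ℝ) : ℂ)) := by
      intro i
      have h2 : ∀ z : ℂ, ((‖z‖ ^ 2 : ℝ) : ℂ) = z * conj z := fun z => by
        rw [Complex.mul_conj']
        push_cast
        rfl
      have h3 := ((hF i).mul ((hF i).conj hq)).gal (σ : ℂ →+* ℂ) (u : ZMod q).val hσ 1
      rw [h2, h2, ← hF1 i]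
      rw [one_mul] at h3
      exact h3.symm
    have h4 : ((∑ i, ‖F i (u : ZMod q).val‖ ^ 2 : ℝ) : ℂ) = ((r : ℝ) : ℂ) := by
      rw [Complex.ofReal_sum, Finset.sum_congr rfl fun i _ => h1 i, ← map_sum, ← Complex.ofReal_sum,
        hr]
      simp
    exact_mod_cast h4
  have hne : 0 < (Fintype.card (ZMod q)ˣ : ℝ) := by exact_mod_cast Fintype.card_pos
  have h1 : (Fintype.card {i // a i ≠ 0} : ℝ) * Fintype.card (ZMod q)ˣ ≤
      r * Fintype.card (ZMod q)ˣ := by
    calc (Fintype.card {i // a i ≠ 0} : ℝ) * Fintype.card (ZMod q)ˣ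
        = ∑ _i : {i // a i ≠ 0}, (Fintype.card (ZMod q)ˣ : ℝ) := by
          rw [Finset.sum_const, Finset.card_univ, nsmul_eq_mul]
      _ ≤ ∑ i : {i // a i ≠ 0}, ∑ u : (ZMod q)ˣ, ‖F i (u : ZMod q).val‖ ^ 2 := by
          refine Finset.sum_le_sum fun i _ => ?_
          exact (hF i).card_le_sum_one (by rw [hF1]; exact i.2) hM
      _ = ∑ u : (ZMod q)ˣ, ∑ i : {i // a i ≠ 0}, ‖F i (u : ZMod q).val‖ ^ 2 := Finset.sum_comm
      _ ≤ ∑ _u : (ZMod q)ˣ, (r : ℝ) := by
          refine Finset.sum_le_sum fun u _ => ?_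
          rw [← hsum u]
          rw [← Finset.sum_subtype (Finset.univ.filter fun i => a i ≠ 0) (by simp)
            (fun i => ‖F i (u : ZMod q).val‖ ^ 2)]
          exact Finset.sum_le_sum_of_subset_of_nonneg (Finset.filter_subset _ _)
            (fun i _ _ => by positivity)
      _ = r * Fintype.card (ZMod q)ˣ := by
          rw [Finset.sum_const, Finset.card_univ, nsmul_eq_mul, mul_comm]
  have h2 := le_of_mul_le_mul_right h1 hne
  rw [Nat.card_eq_fintype_card]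
  exact_mod_cast h2

end Cfsg.Agent.H657.TIB
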