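import Cfsg.Agent.H657.TIB.Fus
import Cfsg.Agent.H532.CopAct

/-!
# Existence of the configuration
-/

set_option autoImplicit false
set_option linter.unusedSectionVars false

open Cfsg
open scoped Pointwise

universe u

namespace Cfsg.Agent.H657.TIB

variable {G : Type u} [Group G] [Finite G] {p : ℕ} [hp : Fact p.Prime]

/-- The stabilizer of a coset. -/
def cosStab (P K H : Subgroup G) (hHN : H ≤ Subgroup.normalizer (P : Set G))
    (hK : ∀ x ∈ Subgroup.normalizer (P : Set G), ∀ k ∈ K, x * k * x⁻¹ ∈ K) (u : G) :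
    Subgroup G where
  carrier := {h | h ∈ H ∧ h * u * h⁻¹ * u⁻¹ ∈ K}
  one_mem' := ⟨one_mem _, by simp⟩
  mul_mem' := by
    rintro a b ⟨ha, ha'⟩ ⟨hb, hb'⟩
    refine ⟨mul_mem ha hb, ?_⟩
    have h1 : a * b * u * (a * b)⁻¹ * u⁻¹ = (a * (b * u * b⁻¹ * u⁻¹) * a⁻¹) *
        (a * u * a⁻¹ * u⁻¹) := by group
    rw [h1]
    exact mul_mem (hK a (hHN ha) _ hb') ha'
  inv_mem' := by
    rintro a ⟨ha, ha'⟩
    refine ⟨inv_mem ha, ?_⟩
    have h1 : a⁻¹ * u * a⁻¹⁻¹ * u⁻¹ = a⁻¹ * (a * u * a⁻¹ * u⁻¹)⁻¹ * a⁻¹⁻¹ := by group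
    rw [h1]
    exact hK _ (inv_mem (hHN ha)) _ (inv_mem ha')

theorem mem_comm_iff (P : Subgroup G) {x : G} :
    x ∈ (commutator P).map P.subtype ↔ ∃ h : x ∈ P, (⟨x, h⟩ : P) ∈ commutator P := by
  constructor
  · rintro ⟨y, hy, rfl⟩
    exact ⟨y.2, hy⟩
  · rintro ⟨h, hy⟩
    exact ⟨⟨x, h⟩, hy, rfl⟩

theorem normK (P : Subgroup G) (x : G) (hx : x ∈ Subgroup.normalizer (P : Set G)) (k : G)
    (hk : k ∈ (commutator P).map P.subtype) : x * k * x⁻¹ ∈ (commutator P).map P.subtype := by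
  rw [Subgroup.map_subtype_commutator] at hk ⊢
  have h1 : ⁅P, P⁆.map (MulAut.conj x).toMonoidHom = ⁅P, P⁆ := by
    rw [Subgroup.map_commutator]
    have h2 : P.map (MulAut.conj x).toMonoidHom = P := by
      ext y
      constructor
      · rintro ⟨z, hz, rfl⟩
        exact (Subgroup.mem_normalizer_iff.1 hx z).1 hz
      · intro hy
        refine ⟨x⁻¹ * y * x, (Subgroup.mem_normalizer_iff.1 hx _).2 ?_, ?_⟩
        · have : x * (x⁻¹ * y * x) * x⁻¹ = y := by group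
          rwa [this]
        · change x * (x⁻¹ * y * x) * x⁻¹ = y
          group
    rw [h2]
  rw [← h1]
  exact ⟨k, hk, rfl⟩

/-- **The configuration exists.** -/
theorem exists_cf (P : Sylow p G) (hP1 : (P : Subgroup G) ≠ ⊥)
    (hTI : ∀ g : G, g ∉ Subgroup.normalizer ((P : Subgroup G) : Set G) →
      (P : Subgroup G) ⊓ (MulAut.conj g • (P : Subgroup G)) = ⊥) :
    ∃ (H : Subgroup G) (u : G), Cf p (P : Subgroup G)
      ((commutator (P : Subgroup G)).map (P : Subgroup G).subtype) H u := by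
  classical
  set Q : Subgroup G := (P : Subgroup G) with hQ
  set N : Subgroup G := Subgroup.normalizer (Q : Set G) with hN
  set K : Subgroup G := (commutator Q).map Q.subtype with hK
  have hQN : Q ≤ N := Subgroup.le_normalizer
  have hQp : IsPGroup p Q := P.isPGroup'
  have hnQ : (Q.subgroupOf N).Normal := Subgroup.normal_in_normalizer
  have hidx : ¬ p ∣ Q.index := P.not_dvd_index
  have hidxN : ¬ p ∣ (Q.subgroupOf N).index := fun h => hidx (h.trans (by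
    rw [← Subgroup.relIndex]
    exact Subgroup.relIndex_dvd_index_of_le hQN))
  have hcardQ : ∃ n, Nat.card Q = p ^ n := (IsPGroup.iff_card (p := p)).1 hQp
  have hcop : Nat.Coprime (Nat.card (Q.subgroupOf N)) (Q.subgroupOf N).index := by
    rw [Nat.card_congr (Subgroup.subgroupOfEquivOfLe hQN).toEquiv]
    obtain ⟨n, hn⟩ := hcardQ
    rw [hn]
    exact Nat.Coprime.pow_left n ((Nat.Prime.coprime_iff_not_dvd hp.out).2 hidxN)
  obtain ⟨H₀, hH₀⟩ := Subgroup.exists_right_complement'_of_coprime hcop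
  set H : Subgroup G := H₀.map N.subtype with hH
  have hHN : H ≤ N := Subgroup.map_subtype_le _
  have hcardH : Nat.card H = (Q.subgroupOf N).index := by
    rw [hH, Subgroup.card_map_of_injective N.subtype_injective]
    exact hH₀.symm.index_eq_card.symm
  have hpH : ¬ p ∣ Nat.card H := by rw [hcardH]; exact hidxN
  have hKn := normK Q
  have hKQ : K ≤ Q := Subgroup.map_subtype_le _
  have hcomm : ∀ a ∈ Q, ∀ b ∈ Q, a * b * a⁻¹ * b⁻¹ ∈ K := by
    intro a ha b hb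
    rw [hK, Subgroup.map_subtype_commutator]
    exact Subgroup.commutator_mem_commutator ha hb
  have hdis : ∀ x ∈ Q, x ∈ H → x = 1 := by
    rintro x hx ⟨y, hy, rfl⟩
    have h1 := hH₀.disjoint
    rw [Subgroup.disjoint_def] at h1
    have h2 := h1 (x := y) (Subgroup.mem_subgroupOf.2 hx) hy
    rw [h2]; rfl
  have hgen : ∀ x ∈ N, ∃ h ∈ H, ∃ v ∈ Q, x = h * v := by
    intro x hx
    obtain ⟨⟨v, h⟩, e⟩ := hH₀.2 (⟨x, hx⟩⁻¹ : N)
    refine ⟨((h : N) : G)⁻¹, inv_mem ⟨h, h.2, rfl⟩, ((v : N) : G)⁻¹,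
      inv_mem (Subgroup.mem_subgroupOf.1 v.2), ?_⟩
    have e1 : ((v : N) : G) * ((h : N) : G) = x⁻¹ := congrArg Subtype.val e
    rw [← mul_inv_rev, e1, inv_inv]
  -- the element `u`
  have hQ1 : Nontrivial Q := Subgroup.nontrivial_iff_ne_bot _ |>.2 hP1
  have hKQ' : ∃ u ∈ Q, u ∉ K := by
    by_contra hcon
    push Not at hcon
    have hnil : Group.IsNilpotent Q := hQp.isNilpotent
    have hsolv : Group.IsSolvable Q := inferInstance
    have h1 : commutator Q = ⊤ := by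
      rw [eq_top_iff]
      intro x _
      obtain ⟨h, hx⟩ := (mem_comm_iff Q).1 (hcon x x.2)
      exact hx
    exact absurd h1 (Group.IsSolvable.commutator_lt_top_of_nontrivial Q).ne
  obtain ⟨u₀, hu₀, hu₀K⟩ := hKQ'
  let H₁ := cosStab Q K H hHN hKn u₀
  have hH₁ : ∀ h, h ∈ H₁ ↔ h ∈ H ∧ h * u₀ * h⁻¹ * u₀⁻¹ ∈ K := fun h => Iff.rfl
  have hH₁H : H₁ ≤ H := fun h hh => hh.1
  let act : MulDistribMulAction H₁ Q :=
    { smul := fun b v => ⟨(b : G) * v * (b : G)⁻¹,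
        (Subgroup.mem_normalizer_iff.1 (hHN (hH₁H b.2)) v).1 v.2⟩
      one_smul := fun v => Subtype.ext (by change (1 : G) * v * (1 : G)⁻¹ = v; simp)
      mul_smul := fun b c v => Subtype.ext (by
        change ((b : G) * c) * v * ((b : G) * c)⁻¹ = b * (c * v * (c : G)⁻¹) * (b : G)⁻¹
        group)
      smul_mul := fun b v w => Subtype.ext (by
        change (b : G) * (v * w) * (b : G)⁻¹ = (b * v * (b : G)⁻¹) * (b * w * (b : G)⁻¹)
        group)
      smul_one := fun b => Subtype.ext (by change (b : G) * 1 * (b : G)⁻¹ = 1; simp) }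
  have hsm : ∀ (b : H₁) (v : Q), ((b • v : Q) : G) = (b : G) * v * (b : G)⁻¹ := fun _ _ => rfl
  have hcopH : (Nat.card H₁).Coprime (Nat.card Q) := by
    obtain ⟨n, hn⟩ := hcardQ
    rw [hn]
    refine Nat.Coprime.pow_right n (Nat.Coprime.symm ?_)
    exact (Nat.Prime.coprime_iff_not_dvd hp.out).2
      (fun h => hpH (h.trans (Subgroup.card_dvd_of_le hH₁H)))
  have hnilQ : Group.IsNilpotent Q := hQp.isNilpotent
  have hsolvQ : Group.IsSolvable Q := inferInstance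
  have hKmem : ∀ v : Q, v ∈ commutator Q ↔ (v : G) ∈ K := by
    intro v
    rw [hK, mem_comm_iff]
    exact ⟨fun h => ⟨v.2, h⟩, fun ⟨_, h⟩ => h⟩
  obtain ⟨c, hc, hcK⟩ := H532.CopAct.exists_fixed_lift (A := H₁) (G := Q) hcopH (Or.inr hsolvQ)
    (commutator Q) (fun a x hx => by
      rw [hKmem] at hx ⊢
      rw [hsm]
      exact hKn _ (hHN (hH₁H a.2)) _ hx) ⟨u₀, hu₀⟩ (fun a => by
      rw [hKmem]
      change u₀⁻¹ * ((a : G) * u₀ * (a : G)⁻¹) ∈ K
      have h1 : u₀⁻¹ * ((a : G) * u₀ * (a : G)⁻¹) =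
          u₀⁻¹ * ((a : G) * u₀ * (a : G)⁻¹ * u₀⁻¹) * u₀⁻¹⁻¹ := by group
      rw [h1]
      exact hKn _ (inv_mem (hQN hu₀)) _ ((hH₁ a).1 a.2).2)
  rw [hKmem] at hcK
  have hcK' : u₀⁻¹ * (c : G) ∈ K := hcK
  refine ⟨H, c, ⟨hKQ, hcomm, hKn, hHN, hdis, hgen, c.2, ?_, ?_, hTI, hQp, hpH⟩⟩
  · intro h
    apply hu₀K
    have h1 : u₀ = c * (u₀⁻¹ * (c : G))⁻¹ := by group
    rw [h1]
    exact mul_mem h (inv_mem hcK')
  · intro h hh hhK
    have h2 : h ∈ H₁ := by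
      refine ⟨hh, ?_⟩
      -- `u₀ = c k`
      have h3 : h * u₀ * h⁻¹ * u₀⁻¹ = (h * (c : G) * h⁻¹ * (c : G)⁻¹) *
          ((c : G) * ((h * (u₀⁻¹ * (c : G))⁻¹ * h⁻¹) * (u₀⁻¹ * (c : G))) * (c : G)⁻¹) := by group
      rw [h3]
      exact mul_mem hhK (hKn _ (hQN c.2) _ (mul_mem (hKn _ (hHN hh) _ (inv_mem hcK')) hcK'))
    have h4 := congrArg Subtype.val (hc ⟨h, h2⟩)
    rw [hsm] at h4
    exact mul_inv_eq_iff_eq_mul.1 h4

end Cfsg.Agent.H657.TIB
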