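import Mathlib
import Cfsg.Agent.S0145
import Cfsg.Agent.Characters.Core

/-!
# Fusion of the elements `k u g`

`P` is a TI subgroup of `G` with `N_G(P) = H P`, `P' ≤ K ≤ P`, `u ∈ P \ K`, `F = C_H(u)` is the
stabilizer in `H` of the coset `K u`. The elements `k u g`, `k ∈ K`, `g ∈ F`, are conjugate in `G`
only by elements `h v`, `h ∈ F`, `v ∈ P`, `[v, g] ∈ K`.
-/

set_option autoImplicit false
set_option linter.unusedSectionVars false

open Cfsg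
open scoped ComplexConjugate Pointwise

universe u

namespace Cfsg.Agent.H657.TIB

/-- The configuration. -/
structure Cf {G : Type u} [Group G] (p : ℕ) (P K H : Subgroup G) (u : G) : Prop where
  KP : K ≤ P
  comm : ∀ a ∈ P, ∀ b ∈ P, a * b * a⁻¹ * b⁻¹ ∈ K
  nK : ∀ x ∈ Subgroup.normalizer (P : Set G), ∀ k ∈ K, x * k * x⁻¹ ∈ K
  HN : H ≤ Subgroup.normalizer (P : Set G)
  dis : ∀ x ∈ P, x ∈ H → x = 1
  gen : ∀ x ∈ Subgroup.normalizer (P : Set G), ∃ h ∈ H, ∃ v ∈ P, x = h * v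
  uP : u ∈ P
  uK : u ∉ K
  fix : ∀ h ∈ H, h * u * h⁻¹ * u⁻¹ ∈ K → h * u = u * h
  TI : ∀ x : G, x ∉ Subgroup.normalizer (P : Set G) → P ⊓ (MulAut.conj x • P) = ⊥
  pP : IsPGroup p P
  pH : ¬ p ∣ Nat.card H

namespace Cf

variable {G : Type u} [Group G] [Finite G] {p : ℕ} [hp : Fact p.Prime] {P K H : Subgroup G} {u : G}
  (c : Cf p P K H u)
include c

omit [Finite G] in
theorem PN : P ≤ Subgroup.normalizer (P : Set G) := by
  have _ := c.uP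
  exact Subgroup.le_normalizer

omit [Finite G] in
/-- conjugating `K` by elements of the normalizer -/
theorem nK' {x : G} (hx : x ∈ Subgroup.normalizer (P : Set G)) {k : G} (hk : k ∈ K) :
    x⁻¹ * k * x ∈ K := by
  have := c.nK x⁻¹ (inv_mem hx) k hk
  rwa [inv_inv] at this

omit [Finite G] in
theorem nP {x : G} (hx : x ∈ Subgroup.normalizer (P : Set G)) {v : G} (hv : v ∈ P) :
    x * v * x⁻¹ ∈ P := (Subgroup.mem_normalizer_iff.1 hx v).1 hv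

omit [Finite G] in
theorem nP' {x : G} (hx : x ∈ Subgroup.normalizer (P : Set G)) {v : G} (hv : v ∈ P) :
    x⁻¹ * v * x ∈ P := by
  have := c.nP (inv_mem hx) hv
  rwa [inv_inv] at this

omit [Finite G] in
/-- The power of `k u g`. -/
theorem pow_eq {k w g : G} (hk : k ∈ K) (hw : w ∈ P) (hg : g ∈ Subgroup.normalizer (P : Set G))
    (hwg : g * w = w * g) (n : ℕ) :
    ∃ k' ∈ K, (k * w * g) ^ n = k' * w ^ n * g ^ n := by
  induction n with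
  | zero => exact ⟨1, one_mem _, by simp⟩
  | succ n ih =>
    obtain ⟨k', hk', e⟩ := ih
    have hwN : w ∈ Subgroup.normalizer (P : Set G) := c.PN hw
    have h1 : g ^ n * w = w * g ^ n := (Commute.pow_left (show Commute g w from hwg) n).eq
    refine ⟨k' * ((w ^ n * g ^ n) * k * (w ^ n * g ^ n)⁻¹), mul_mem hk'
      (c.nK _ (mul_mem (pow_mem hwN n) (pow_mem hg n)) k hk), ?_⟩
    rw [pow_succ, e, pow_succ, pow_succ]
    calc k' * w ^ n * g ^ n * (k * w * g)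
        = k' * (w ^ n * g ^ n * k * (w ^ n * g ^ n)⁻¹) * (w ^ n * (g ^ n * w) * g) := by group
      _ = k' * (w ^ n * g ^ n * k * (w ^ n * g ^ n)⁻¹) * (w ^ n * (w * g ^ n) * g) := by rw [h1]
      _ = _ := by group

omit [Finite G] in
theorem exists_pow_pow {v : G} (hv : v ∈ P) {n : ℕ} (hn : ¬ p ∣ n) : ∃ s : ℕ, (v ^ n) ^ s = v := by
  apply exists_pow_eq_self_of_coprime
  obtain ⟨k, hk⟩ := c.pP ⟨v, hv⟩
  have hk' : v ^ p ^ k = 1 := congrArg Subtype.val hk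
  have h1 : orderOf v ∣ p ^ k := orderOf_dvd_of_pow_eq_one hk'
  exact Nat.Coprime.coprime_dvd_right h1
    (Nat.Coprime.pow_right k ((Nat.Prime.coprime_iff_not_dvd hp.out).2 hn).symm)

/-- The stabilizer. -/
theorem pow_card_eq {g : G} (hg : g ∈ H) : g ^ Nat.card H = 1 := by
  have := pow_card_eq_one' (x := (⟨g, hg⟩ : H))
  exact congrArg Subtype.val this

/-- **Fusion.** -/
theorem fus {x k g k' g' : G} (hk : k ∈ K) (hg : g ∈ H) (hgu : g * u = u * g)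
    (hk' : k' ∈ K) (hg' : g' ∈ H) (hgu' : g' * u = u * g')
    (e : x * (k * u * g) * x⁻¹ = k' * u * g') :
    ∃ h ∈ H, h * u = u * h ∧ ∃ v ∈ P, x = h * v ∧ h * g * h⁻¹ = g' ∧ v * g * v⁻¹ * g⁻¹ ∈ K := by
  set m := Nat.card H with hm
  obtain ⟨a, ha, ea⟩ := c.pow_eq hk c.uP (c.HN hg) hgu m
  obtain ⟨b, hb, eb⟩ := c.pow_eq hk' c.uP (c.HN hg') hgu' m
  rw [c.pow_card_eq hg, mul_one] at ea
  rw [c.pow_card_eq hg', mul_one] at eb
  have e1 : x * (a * u ^ m) * x⁻¹ = b * u ^ m := by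
    rw [← ea, ← eb, ← e, conj_pow]
  have hum : u ^ m ∉ K := by
    intro h
    obtain ⟨s, hs⟩ := c.exists_pow_pow c.uP c.pH
    exact c.uK (by rw [← hs]; exact pow_mem h s)
  -- `x` normalizes `P`
  have hx : x ∈ Subgroup.normalizer (P : Set G) := by
    by_contra hx
    have h1 := c.TI x hx
    have h2 : b * u ^ m ∈ P ⊓ (MulAut.conj x • P) := by
      refine ⟨mul_mem (c.KP hb) (pow_mem c.uP m), ?_⟩
      rw [← e1]
      exact Subgroup.smul_mem_pointwise_smul _ (MulAut.conj x) P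
        (mul_mem (c.KP ha) (pow_mem c.uP m))
    rw [h1, Subgroup.mem_bot] at h2
    apply hum
    rw [← inv_eq_of_mul_eq_one_right h2]
    exact inv_mem hb
  obtain ⟨h, hh, v, hv, rfl⟩ := c.gen x hx
  have hhN := c.HN hh
  have hvN := c.PN hv
  -- `h` fixes the coset of `u`
  have h1 : h * u ^ m * h⁻¹ * (u ^ m)⁻¹ ∈ K := by
    have h2 : h * u ^ m * h⁻¹ * (u ^ m)⁻¹ =
        (h * (v * (u ^ m) * v⁻¹ * (u ^ m)⁻¹)⁻¹ * h⁻¹) * (h * (v * a * v⁻¹)⁻¹ * h⁻¹) * b := by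
      have e2 : h * u ^ m * h⁻¹ = (h * (v * (u ^ m) * v⁻¹ * (u ^ m)⁻¹)⁻¹ * h⁻¹) *
          (h * (v * a * v⁻¹)⁻¹ * h⁻¹) * (h * v * (a * u ^ m) * (h * v)⁻¹) := by group
      rw [e2, e1]
      group
    rw [h2]
    exact mul_mem (mul_mem (c.nK h hhN _ (inv_mem (c.comm v hv _ (pow_mem c.uP m))))
      (c.nK h hhN _ (inv_mem (c.nK v hvN a ha)))) hb
  have h2 : h * u = u * h := by
    obtain ⟨s, hs⟩ := c.exists_pow_pow c.uP c.pH
    apply c.fix h hh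
    obtain ⟨d, hd, ed⟩ := c.pow_eq h1 (pow_mem c.uP m) (one_mem _) (by simp) s
    rw [one_pow, mul_one, mul_one, hs] at ed
    have e3 : h * u ^ m * h⁻¹ * (u ^ m)⁻¹ * u ^ m = h * u ^ m * h⁻¹ := by group
    rw [e3, conj_pow, hs] at ed
    rw [ed]
    simpa using hd
  have hhinv : h⁻¹ * u * h = u := by
    rw [mul_assoc, ← h2, inv_mul_cancel_left]
  -- `h g h⁻¹ = g'`
  have hkP := c.KP hk
  have h3 : h * g * h⁻¹ = g' := by
    have e4 : (h * (v * (k * u) * (g * v⁻¹ * g⁻¹)) * h⁻¹)⁻¹ * (k' * u) =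
        (h * g * h⁻¹) * g'⁻¹ := by
      have e5 : k' * u = h * v * (k * u * g) * (h * v)⁻¹ * g'⁻¹ := by rw [e]; group
      rw [e5]
      group
    have h5 : (h * g * h⁻¹) * g'⁻¹ ∈ P := by
      rw [← e4]
      exact mul_mem (inv_mem (c.nP hhN (mul_mem (mul_mem hv (mul_mem hkP c.uP))
        (c.nP (c.HN hg) (inv_mem hv))))) (mul_mem (c.KP hk') c.uP)
    have h6 : (h * g * h⁻¹) * g'⁻¹ ∈ H := mul_mem (mul_mem (mul_mem hh hg) (inv_mem hh)) (inv_mem hg')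
    exact mul_inv_eq_one.1 (c.dis _ h5 h6)
  refine ⟨h, hh, h2, v, hv, rfl, h3, ?_⟩
  -- `v g v⁻¹ g⁻¹ ∈ K`
  have e6 : v * (k * u * g) * v⁻¹ = (h⁻¹ * k' * h) * u * g := by
    have e7 : v * (k * u * g) * v⁻¹ = h⁻¹ * (h * v * (k * u * g) * (h * v)⁻¹) * h := by group
    rw [e7, e, ← h3]
    calc h⁻¹ * (k' * u * (h * g * h⁻¹)) * h = (h⁻¹ * k' * h) * (h⁻¹ * u * h) * g := by group
      _ = _ := by rw [hhinv]
  have e8 : v * g * v⁻¹ * g⁻¹ = u⁻¹ * ((v * u * v⁻¹ * u⁻¹)⁻¹ * (v * k * v⁻¹)⁻¹ *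
      (h⁻¹ * k' * h)) * u := by
    have e9 : v * g * v⁻¹ = (v * u * v⁻¹)⁻¹ * (v * k * v⁻¹)⁻¹ * (v * (k * u * g) * v⁻¹) := by group
    rw [e9, e6]
    group
  rw [e8]
  exact c.nK' (c.PN c.uP) (mul_mem (mul_mem (inv_mem (c.comm v hv u c.uP))
    (inv_mem (c.nK v hvN k hk))) (c.nK' hhN hk'))

omit [Finite G] in
/-- The converse. -/
theorem fus_conv {k g h v : G} (hk : k ∈ K) (hg : g ∈ H) (hh : h ∈ H) (hhu : h * u = u * h)
    (hv : v ∈ P) (hvg : v * g * v⁻¹ * g⁻¹ ∈ K) :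
    ∃ k' ∈ K, (h * v) * (k * u * g) * (h * v)⁻¹ = k' * u * (h * g * h⁻¹) := by
  have hhN := c.HN hh
  have hvN := c.PN hv
  have huN := c.PN c.uP
  refine ⟨h * ((v * k * v⁻¹) * (v * u * v⁻¹ * u⁻¹) * (u * (v * g * v⁻¹ * g⁻¹) * u⁻¹)) * h⁻¹,
    c.nK h hhN _ (mul_mem (mul_mem (c.nK v hvN k hk) (c.comm v hv u c.uP))
      (c.nK u huN _ hvg)), ?_⟩
  have h1 : h * u * h⁻¹ = u := by rw [hhu, mul_inv_cancel_right]
  have e : (h * v) * (k * u * g) * (h * v)⁻¹ = h * ((v * k * v⁻¹) * (v * u * v⁻¹ * u⁻¹) *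
      (u * (v * g * v⁻¹ * g⁻¹) * u⁻¹)) * h⁻¹ * (h * u * h⁻¹) * (h * g * h⁻¹) := by group
  rw [e, h1]

end Cf

end Cfsg.Agent.H657.TIB
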