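import Cfsg.Agent.H644.KGV.Final
import Cfsg.Agent.H716.KGV.Sum
import Cfsg.Agent.OddOrderCharacters.VChar
import Cfsg.Agent.OddOrderCharacters.PF13.SumBound

/-!
# The class function `κ` for coprime actions on abelian `p`-groups

Let the `p'`-group `F` act on the abelian `p`-group `V`. There is a `ℤ[ζ_p]`-combination `κ` of
characters of `F` with `|κ(g)|² = |V : C_V(g)|`, `κ(g) = 1` if `g` acts trivially on `V`, and
`κ(g)` divisible by `1 - ζ_p` if not.
-/

set_option autoImplicit false
set_option linter.unusedSectionVars false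

open Cfsg Cfsg.Agent.H644.KGV Cfsg.Agent.OddOrderCharacters.VChar
open scoped ComplexConjugate

universe u

namespace Cfsg.Agent.H657.TIB

section U1

variable {p : ℕ} [NeZero p]

/-- A `ℤ[ζ_p]`-combination of generalized characters. -/
def U1 (p : ℕ) [NeZero p] (F : Type*) [Group F] (κ : F → ℂ) : Prop :=
  ∃ θ : ZMod p → F → ℂ, (∀ k, IsGeneralizedCharacter F (θ k)) ∧
    ∀ g, κ g = ∑ k : ZMod p, (ZMod.stdAddChar k : ℂ) * θ k g

variable {F : Type*} [Group F]

theorem U1.of_gen {κ : F → ℂ} (h : IsGeneralizedCharacter F κ) : U1 p F κ := by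
  classical
  refine ⟨fun k => if k = 0 then κ else 0, fun k => ?_, fun g => ?_⟩
  · by_cases hk : k = 0
    · simpa [hk] using h
    · simpa [hk] using gen_zero
  · rw [Finset.sum_eq_single 0]
    · simp
    · intro b _ hb
      simp [hb]
    · simp

theorem U1.mul {κ κ' : F → ℂ} (h : U1 p F κ) (h' : U1 p F κ') :
    U1 p F (fun g => κ g * κ' g) := by
  classical
  obtain ⟨θ, hθ, e⟩ := h
  obtain ⟨θ', hθ', e'⟩ := h'
  refine ⟨fun m => ∑ k : ZMod p, θ k * θ' (m - k), fun m => ?_, fun g => ?_⟩
  · exact gen_sum _ fun k _ => gen_mul (hθ k) (hθ' _)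
  · change κ g * κ' g = _
    rw [e, e', Finset.sum_mul_sum]
    have h1 : ∀ m : ZMod p, (ZMod.stdAddChar m : ℂ) * (∑ k : ZMod p, θ k * θ' (m - k)) g =
        ∑ k : ZMod p, (ZMod.stdAddChar m : ℂ) * (θ k g * θ' (m - k) g) := by
      intro m
      rw [Finset.sum_apply, Finset.mul_sum]
      rfl
    simp only [h1]
    rw [Finset.sum_comm (s := (Finset.univ : Finset (ZMod p))) (t := Finset.univ)
      (f := fun m k => (ZMod.stdAddChar m : ℂ) * (θ k g * θ' (m - k) g))]
    refine Finset.sum_congr rfl fun k _ => ?_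
    rw [← Equiv.sum_comp (Equiv.addLeft k)
      (fun m => (ZMod.stdAddChar m : ℂ) * (θ k g * θ' (m - k) g))]
    refine Finset.sum_congr rfl fun l _ => ?_
    simp only [Equiv.coe_addLeft, add_sub_cancel_left, AddChar.map_add_eq_mul]
    ring

theorem U1.comp {κ : F → ℂ} (h : U1 p F κ) {E : Type*} [Group E] (f : E →* F) :
    U1 p E (κ ∘ f) := by
  obtain ⟨θ, hθ, e⟩ := h
  exact ⟨fun k => θ k ∘ f, fun k => gen_comp f (hθ k), fun g => e (f g)⟩

end U1

section Act

variable {V F : Type u} [CommGroup V] [Finite V] [Group F] [Finite F] {p : ℕ} [hp : Fact p.Prime]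

/-- Restriction of an action to an invariant subgroup. -/
def restr (α : F →* MulAut V) (W : Subgroup V) (h : ∀ f, ∀ w ∈ W, α f w ∈ W) :
    F →* MulAut W :=
  MonoidHom.mk' (fun f =>
    { toFun := fun w => ⟨α f w, h f w w.2⟩
      invFun := fun w => ⟨α f⁻¹ w, h f⁻¹ w w.2⟩
      left_inv := fun w => Subtype.ext (by simp)
      right_inv := fun w => Subtype.ext (by simp)
      map_mul' := fun a b => Subtype.ext (by simp) })
    (fun a b => by
      ext w
      simp)

theorem restr_apply (α : F →* MulAut V) (W : Subgroup V) (h : ∀ f, ∀ w ∈ W, α f w ∈ W) (f : F)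
    (w : W) : ((restr α W h f w : W) : V) = α f w := rfl

/-- The norm. -/
noncomputable def nrm (τ : MulAut V) (n : ℕ) : V →* V where
  toFun v := ∏ i ∈ Finset.range n, (τ ^ i) v
  map_one' := by simp
  map_mul' a b := by simp [Finset.prod_mul_distrib]

theorem nrm_apply (τ : MulAut V) (n : ℕ) (v : V) :
    nrm τ n v = ∏ i ∈ Finset.range n, (τ ^ i) v := rfl

theorem nrm_fixed {τ : MulAut V} {n : ℕ} (hn : τ ^ n = 1) (v : V) :
    τ (nrm τ n v) = nrm τ n v := by
  rw [nrm_apply, map_prod]
  have h1 : ∀ i, τ ((τ ^ i) v) = (τ ^ (i + 1)) v := fun i => by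
    rw [pow_succ']; rfl
  simp only [h1]
  rcases Nat.eq_zero_or_pos n with rfl | hpos
  · simp
  · obtain ⟨m, rfl⟩ : ∃ m, n = m + 1 := ⟨n - 1, by omega⟩
    rw [Finset.prod_range_succ, hn, Finset.prod_range_succ' (fun i => (τ ^ i) v), pow_zero]

theorem nrm_of_fixed {τ : MulAut V} {n : ℕ} {v : V} (hv : τ v = v) : nrm τ n v = v ^ n := by
  rw [nrm_apply]
  have h1 : ∀ i, (τ ^ i) v = v := by
    intro i
    induction i with
    | zero => rfl
    | succ i ih => rw [pow_succ', MulAut.mul_apply, ih, hv]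
  simp [h1]

theorem exists_pow_pow {n : ℕ} (hn : ¬ p ∣ n) (hV : IsPGroup p V) (v : V) :
    ∃ s : ℕ, (v ^ n) ^ s = v := by
  apply exists_pow_eq_self_of_coprime
  obtain ⟨k, hk⟩ := hV v
  have h1 : orderOf v ∣ p ^ k := orderOf_dvd_of_pow_eq_one hk
  exact Nat.Coprime.coprime_dvd_right h1
    (Nat.Coprime.pow_right k ((Nat.Prime.coprime_iff_not_dvd hp.out).2 hn).symm)

/-- A coprime automorphism acting trivially on the elements of order `p` is trivial. -/
theorem eq_one_of_fix {τ : MulAut V} {n : ℕ} (hn : τ ^ n = 1) (hpn : ¬ p ∣ n) (hV : IsPGroup p V)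
    (h : ∀ v : V, v ^ p = 1 → τ v = v) : τ = 1 := by
  -- the kernel of the norm is trivial
  have hker : ∀ w : V, nrm τ n w = 1 → w = 1 := by
    intro w hw
    by_contra hw1
    obtain ⟨k, hk⟩ := hV w
    have hex : ∃ j, w ^ p ^ j ≠ 1 ∧ w ^ p ^ (j + 1) = 1 := by
      by_contra hcon
      push Not at hcon
      have h2 : ∀ j, w ^ p ^ j ≠ 1 := by
        intro j
        induction j with
        | zero => simpa using hw1
        | succ j ih => exact hcon j ih
      exact h2 k hk
    obtain ⟨j, hj1, hj2⟩ := hex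
    have h3 : τ (w ^ p ^ j) = w ^ p ^ j := h _ (by rw [← pow_mul, ← pow_succ, hj2])
    have h4 : nrm τ n (w ^ p ^ j) = 1 := by rw [map_pow, hw, one_pow]
    rw [nrm_of_fixed h3] at h4
    obtain ⟨s, hs⟩ := exists_pow_pow hpn hV (w ^ p ^ j)
    rw [h4, one_pow] at hs
    exact hj1 hs.symm
  ext v
  have h1 : v ^ n * (nrm τ n v)⁻¹ = 1 := by
    apply hker
    rw [map_mul, map_pow, map_inv, nrm_of_fixed (nrm_fixed hn v), mul_inv_cancel]
  have h2 : v ^ n = nrm τ n v := mul_inv_eq_one.1 h1
  obtain ⟨s, hs⟩ := exists_pow_pow hpn hV v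
  rw [MulAut.one_apply]
  conv_lhs => rw [← hs]
  rw [h2, map_pow, nrm_fixed hn v, ← h2, hs]

/-- Counting the fixed points. -/
theorem card_fix {τ : MulAut V} {n : ℕ} (hn : τ ^ n = 1) (hpn : ¬ p ∣ n) (hV : IsPGroup p V) :
    Nat.card {v : V // τ v = v} =
      Nat.card {v : (powMonoidHom p : V →* V).ker // τ v = v} *
        Nat.card {v : (powMonoidHom p : V →* V).range // τ v = v} := by
  classical
  let Fx : Subgroup V := {
    carrier := {v | τ v = v}
    one_mem' := map_one τ
    mul_mem' := fun {a b} ha hb => by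
      change τ (a * b) = a * b
      rw [map_mul, show τ a = a from ha, show τ b = b from hb]
    inv_mem' := fun {a} ha => by
      change τ a⁻¹ = a⁻¹
      rw [map_inv, show τ a = a from ha] }
  let φ : Fx →* V := (powMonoidHom p).comp Fx.subtype
  have h1 : Nat.card Fx = Nat.card φ.ker * Nat.card φ.range := by
    rw [← Subgroup.index_ker φ, Subgroup.card_mul_index]
  have h2 : Nat.card φ.ker = Nat.card {v : (powMonoidHom p : V →* V).ker // τ v = v} := by
    refine Nat.card_congr ⟨fun x => ⟨⟨x.1.1, x.2⟩, x.1.2⟩, fun x => ⟨⟨x.1.1, x.2⟩, x.1.2⟩,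
      fun x => rfl, fun x => rfl⟩
  have h3 : Nat.card φ.range = Nat.card {v : (powMonoidHom p : V →* V).range // τ v = v} := by
    refine Nat.card_congr ⟨fun x => ⟨⟨x.1, ?_⟩, ?_⟩, fun x => ⟨x.1.1, ?_⟩, fun x => rfl,
      fun x => rfl⟩
    · obtain ⟨v, hv⟩ := x.2
      exact ⟨v.1, hv⟩
    · obtain ⟨v, hv⟩ := x.2
      change τ x.1 = x.1
      rw [← hv]
      change τ ((v : V) ^ p) = (v : V) ^ p
      rw [map_pow, show τ (v : V) = v from v.2]
    · obtain ⟨⟨w, ⟨v, hv⟩⟩, hw⟩ := x
      obtain ⟨s, hs⟩ := exists_pow_pow hpn hV w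
      refine ⟨⟨nrm τ n v ^ s, ?_⟩, ?_⟩
      · change τ _ = _
        rw [map_pow, nrm_fixed hn]
      · change (nrm τ n v ^ s) ^ p = w
        have hv' : v ^ p = w := hv
        rw [← pow_mul, mul_comm, pow_mul, ← map_pow, hv', nrm_of_fixed hw, hs]
  rw [show Nat.card {v : V // τ v = v} = Nat.card Fx from rfl, h1, h2, h3]

/-- The properties of `κ`. -/
structure Kap (p : ℕ) [NeZero p] {V F : Type u} [CommGroup V] [Group F] (α : F →* MulAut V)
    (κ : F → ℂ) : Prop where
  gen : U1 p F κ
  norm : ∀ g, ‖κ g‖ ^ 2 * (Nat.card {v : V // α g v = v} : ℝ) = (Nat.card V : ℝ)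
  one : ∀ g, α g = 1 → κ g = 1
  ideal : ∀ g, α g ≠ 1 → ∃ y : ℂ, IsIntegral ℤ y ∧
    κ g = (1 - (ZMod.stdAddChar (1 : ZMod p) : ℂ)) * y

theorem inl_mem_centralizer_iff {V R : Type*} [Group V] [Group R] (β : R →* MulAut V) (r : R)
    (v : V) : (SemidirectProduct.inl v : V ⋊[β] R) ∈
      Subgroup.centralizer ({(SemidirectProduct.inr r : V ⋊[β] R)} : Set (V ⋊[β] R)) ↔
        β r v = v := by
  rw [Subgroup.mem_centralizer_singleton_iff]
  have h4 := SemidirectProduct.inl_aut (φ := β) r v
  constructor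
  · intro h
    apply SemidirectProduct.inl_injective (φ := β)
    rw [h4, ← h, mul_assoc, ← map_mul, mul_inv_cancel, map_one, mul_one]
  · intro h
    rw [h] at h4
    conv_lhs => rw [h4]
    rw [mul_assoc, ← map_mul, inv_mul_cancel, map_one, mul_one]

/-- The elementary abelian case. -/
theorem exists_kap_elem (α : F →* MulAut V) (hVp : ∀ v : V, v ^ p = 1)
    (hF : ¬ p ∣ Nat.card F) : ∃ κ : F → ℂ, Kap p α κ := by
  classical
  let R := α.range
  let β : R →* MulAut V := R.subtype
  have hR : ¬ p ∣ Nat.card R := fun h => hF (h.trans (Subgroup.card_range_dvd α))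
  have hfin : Finite (V ⋊[β] R) := H716.KGV.finite_X
  have hV : IsPGroup p V := fun v => ⟨1, by rw [pow_one]; exact hVp v⟩
  have hcen : Subgroup.centralizer (H716.KGV.DX β : Set (V ⋊[β] R)) = H716.KGV.DX β := by
    refine le_antisymm (H716.KGV.centralizer_DX β ?_) ?_
    · rintro h ⟨d, hd⟩
      apply Subtype.ext
      change β h = 1
      rw [hd]
      ext v
      simp
    · rintro x ⟨v, rfl⟩
      rw [Subgroup.mem_centralizer_iff]
      rintro y ⟨w, rfl⟩
      rw [← map_mul, ← map_mul, mul_comm]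
  have hcomp : Subgroup.IsComplement' (H716.KGV.DX β)
      (SemidirectProduct.inr : R →* V ⋊[β] R).range := by
    refine Subgroup.isComplement'_of_disjoint_and_mul_eq_univ ?_ ?_
    · rw [disjoint_iff, eq_bot_iff]
      rintro x ⟨⟨v, hv⟩, ⟨r, hr⟩⟩
      have h1 : (SemidirectProduct.inl v : V ⋊[β] R).right = x.right := congrArg _ hv
      have h2 : (SemidirectProduct.inr r : V ⋊[β] R).right = x.right := congrArg _ hr
      have h3 : r = 1 := h2.trans h1.symm
      rw [Subgroup.mem_bot, ← hr, h3, map_one]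
    · ext x
      simp only [Set.mem_univ, iff_true]
      exact ⟨SemidirectProduct.inl x.left, ⟨x.left, rfl⟩, SemidirectProduct.inr x.right,
        ⟨x.right, rfl⟩, SemidirectProduct.inl_left_mul_inr_right x⟩
  obtain ⟨κ, D⟩ := existsK' p (V ⋊[β] R) (H716.KGV.DX β)
    (SemidirectProduct.inr : R →* V ⋊[β] R).range
    (by
      rintro v ⟨w, rfl⟩
      rw [← map_pow, hVp, map_one])
    (by rw [H716.KGV.index_DX]; exact hR) hcen hcomp
  let j : F →* (SemidirectProduct.inr : R →* V ⋊[β] R).range :=
    (SemidirectProduct.inr : R →* V ⋊[β] R).rangeRestrict.comp α.rangeRestrict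
  have hj : ∀ g, ((j g : (SemidirectProduct.inr : R →* V ⋊[β] R).range) : V ⋊[β] R) =
    SemidirectProduct.inr (α.rangeRestrict g) := fun g => rfl
  have h10 : (1 : ZMod p) ≠ 0 := one_ne_zero
  refine ⟨κ 1 ∘ j, ⟨?_, ?_, ?_, ?_⟩⟩
  · obtain ⟨θ, hθ, hκ⟩ := D.uint
    have : U1 p (SemidirectProduct.inr : R →* V ⋊[β] R).range (κ 1) := by
      refine ⟨θ, hθ, fun g => ?_⟩
      rw [hκ 1 h10]
      simp only [one_mul]
    exact this.comp j
  · intro g
    have h1 := D.norm 1 h10 (j g)
    have h2 : Nat.card (H716.KGV.DX β) = Nat.card V :=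
      (Nat.card_congr (H716.KGV.eX β).toEquiv).symm
    have h3 : Nat.card ↥(H716.KGV.DX β ⊓ Subgroup.centralizer ({(j g : V ⋊[β] R)} :
        Set (V ⋊[β] R))) = Nat.card {v : V // α g v = v} := by
      refine (Nat.card_congr (Equiv.ofBijective (fun v : {v : V // α g v = v} =>
        (⟨SemidirectProduct.inl v.1, ⟨v.1, rfl⟩, ?_⟩ : ↥(H716.KGV.DX β ⊓
          Subgroup.centralizer ({(j g : V ⋊[β] R)} : Set (V ⋊[β] R))))) ⟨?_, ?_⟩)).symm
      · exact (inl_mem_centralizer_iff β (α.rangeRestrict g) v.1).2 v.2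
      · intro v w hvw
        apply Subtype.ext
        exact SemidirectProduct.inl_injective (congrArg Subtype.val hvw)
      · rintro ⟨x, ⟨v, rfl⟩, hx⟩
        exact ⟨⟨v, (inl_mem_centralizer_iff β (α.rangeRestrict g) v).1 hx⟩, rfl⟩
    rw [← h3, ← h2]
    exact h1
  · intro g hg
    have h1 : j g = 1 := by
      apply Subtype.ext
      rw [hj]
      have : α.rangeRestrict g = 1 := Subtype.ext hg
      rw [this, map_one]
      rfl
    change κ 1 (j g) = 1
    rw [h1]
    exact D.one 1 h10
  · intro g hg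
    refine D.ideal 1 h10 (j g) fun h1 => hg ?_
    have h2 : (SemidirectProduct.inr (α.rangeRestrict g) : V ⋊[β] R) = 1 := by
      rw [← hj, h1]; rfl
    have h3 : α.rangeRestrict g = 1 := SemidirectProduct.inr_injective (by rw [h2, map_one])
    exact congrArg Subtype.val h3

/-- **Existence of `κ`.** -/
theorem exists_kap : ∀ (N : ℕ) {V : Type u} [CommGroup V] [Finite V] (α : F →* MulAut V),
    Nat.card V ≤ N → IsPGroup p V → ¬ p ∣ Nat.card F → ∃ κ : F → ℂ, Kap p α κ := by
  intro N
  induction N with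
  | zero =>
    intro V _ _ α h
    exact absurd (Nat.card_pos (α := V)) (by omega)
  | succ N ih =>
    intro V _ _ α hN hV hF
    by_cases hVp : ∀ v : V, v ^ p = 1
    · exact exists_kap_elem α hVp hF
    push Not at hVp
    obtain ⟨v₀, hv₀⟩ := hVp
    have h1 : ∀ f, ∀ w ∈ (powMonoidHom p : V →* V).ker, α f w ∈ (powMonoidHom p : V →* V).ker := by
      intro f w hw
      have hw' : w ^ p = 1 := hw
      change (α f w) ^ p = 1
      rw [← map_pow, hw', map_one]
    have h2 : ∀ f, ∀ w ∈ (powMonoidHom p : V →* V).range,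
        α f w ∈ (powMonoidHom p : V →* V).range := by
      rintro f w ⟨v, rfl⟩
      exact ⟨α f v, (map_pow (α f) v p).symm⟩
    have hcard : Nat.card (powMonoidHom p : V →* V).ker *
        Nat.card (powMonoidHom p : V →* V).range = Nat.card V := by
      rw [← Subgroup.index_ker, Subgroup.card_mul_index]
    -- the kernel is proper, the range is proper
    have hk1 : Nat.card (powMonoidHom p : V →* V).ker ≤ N := by
      have hlt : Nat.card (powMonoidHom p : V →* V).ker < Nat.card V := by
        have hne : (powMonoidHom p : V →* V).ker ≠ ⊤ := by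
          intro h
          have : v₀ ∈ (powMonoidHom p : V →* V).ker := by rw [h]; trivial
          exact hv₀ this
        exact lt_of_le_of_ne (Subgroup.card_le_card_group _)
          (fun h => hne (Subgroup.eq_top_of_card_eq _ h))
      omega
    have hk2 : Nat.card (powMonoidHom p : V →* V).range ≤ N := by
      have hlt : Nat.card (powMonoidHom p : V →* V).range < Nat.card V := by
        have h3 : 1 < Nat.card (powMonoidHom p : V →* V).ker := by
          by_contra hcon
          have h4 : Nat.card (powMonoidHom p : V →* V).ker = 1 := by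
            have := Nat.card_pos (α := (powMonoidHom p : V →* V).ker)
            omega
          have h5 := (Subgroup.card_eq_one.1 h4)
          -- the power map is injective on a `p`-group
          obtain ⟨k, hk⟩ := hV v₀
          have h6 : ∀ j, v₀ ^ p ^ j ≠ 1 := by
            intro j
            induction j with
            | zero =>
              rw [pow_zero, pow_one]
              rintro rfl
              exact hv₀ (one_pow p)
            | succ j ihj =>
              intro h7
              have h8 : v₀ ^ p ^ j ∈ (powMonoidHom p : V →* V).ker := by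
                change (v₀ ^ p ^ j) ^ p = 1
                rw [← pow_mul, ← pow_succ, h7]
              rw [h5, Subgroup.mem_bot] at h8
              exact ihj h8
          exact h6 k hk
        rw [← hcard]
        exact lt_mul_of_one_lt_left Nat.card_pos h3
      omega
    obtain ⟨κ₁, D₁⟩ := ih (restr α _ h1) hk1 (hV.to_subgroup _) hF
    obtain ⟨κ₂, D₂⟩ := ih (restr α _ h2) hk2 (hV.to_subgroup _) hF
    refine ⟨fun g => κ₁ g * κ₂ g, ⟨D₁.gen.mul D₂.gen, ?_, ?_, ?_⟩⟩
    · intro g
      have hn : (α g) ^ (Nat.card F) = 1 := by rw [← map_pow, pow_card_eq_one', map_one]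
      have e1 := D₁.norm g
      have e2 := D₂.norm g
      have e3 := card_fix hn hF hV
      have e4 : Nat.card {v : (powMonoidHom p : V →* V).ker // restr α _ h1 g v = v} =
          Nat.card {v : (powMonoidHom p : V →* V).ker // α g v = v} :=
        Nat.card_congr (Equiv.subtypeEquivRight fun v => ⟨fun h => congrArg Subtype.val h,
          fun h => Subtype.ext h⟩)
      have e5 : Nat.card {v : (powMonoidHom p : V →* V).range // restr α _ h2 g v = v} =
          Nat.card {v : (powMonoidHom p : V →* V).range // α g v = v} :=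
        Nat.card_congr (Equiv.subtypeEquivRight fun v => ⟨fun h => congrArg Subtype.val h,
          fun h => Subtype.ext h⟩)
      rw [e4] at e1
      rw [e5] at e2
      rw [e3, ← hcard, norm_mul, Nat.cast_mul, Nat.cast_mul, ← e1, ← e2]
      ring
    · intro g hg
      have e1 : restr α _ h1 g = 1 := by
        ext v
        change α g v = v
        rw [hg]; rfl
      have e2 : restr α _ h2 g = 1 := by
        ext v
        change α g v = v
        rw [hg]; rfl
      rw [D₁.one g e1, D₂.one g e2, one_mul]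
    · intro g hg
      have hn : (α g) ^ (Nat.card F) = 1 := by rw [← map_pow, pow_card_eq_one', map_one]
      have e1 : restr α _ h1 g ≠ 1 := by
        intro he
        apply hg
        apply eq_one_of_fix hn hF hV
        intro v hv
        have := congrArg (fun τ => ((τ ⟨v, hv⟩ : (powMonoidHom p : V →* V).ker) : V)) he
        exact this
      obtain ⟨y, hy, e⟩ := D₁.ideal g e1
      refine ⟨y * κ₂ g, hy.mul ?_, by rw [e]; ring⟩
      obtain ⟨θ, hθ, e2⟩ := D₂.gen
      rw [e2]
      refine IsIntegral.sum _ fun k _ => IsIntegral.mul ?_ ?_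
      · refine IsIntegral.of_pow hp.out.pos ?_
        rw [← AddChar.map_nsmul_eq_pow, nsmul_eq_mul, ZMod.natCast_self, zero_mul,
          AddChar.map_zero_eq_one]
        exact isIntegral_one
      · exact Cfsg.Agent.OddOrderCharacters.PF13.SumBound.gen_isIntegral (hθ k) g

end Act

end Cfsg.Agent.H657.TIB
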