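import Cfsg.Agent.H657.TIB.Sum
import Cfsg.Agent.H657.TIB.Cyclo
import Cfsg.Agent.H657.TIB.Kap
import Cfsg.Agent.H991.KGV.CountB
import Cfsg.Agent.Classification.BGAverage
import Cfsg.Agent.S0188
import Cfsg.Agent.CharactersDeep.FeitLinear
import Cfsg.Agent.Blocks.Deflate
import Cfsg.Agent.Characters.Linear
import Cfsg.Agent.H668.CharPeel
import Cfsg.Agent.Blocks.CentralProduct
import Cfsg.Agent.Blocks.CentralizerSum

/-!
# Integrality and congruences of the functional
-/

set_option autoImplicit false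
set_option linter.unusedSectionVars false

open Cfsg Cfsg.Agent.H991.KGV Cfsg.Agent.OddOrderCharacters.VChar
open Cfsg.Agent.Characters.Core Cfsg.Agent.Classification.BGAverage
open scoped ComplexConjugate Pointwise

universe u

namespace Cfsg.Agent.H657.TIB

section Inner

variable {A F : Type u} [Group A] [Finite A] [Group F] [Finite F]

theorem inner_mem_irr [Fintype F] {χ : A × F → ℂ} (hχ : IsIrrCharacter (A × F) χ) {a : A}
    (ha : ∀ b : A, a * b = b * a) {q : ℕ} (hq : a ^ q = 1) {θ φ : F → ℂ}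
    (hθ : IsGeneralizedCharacter F θ) (hφ : IsGeneralizedCharacter F φ) :
    (Nat.card F : ℂ)⁻¹ * ∑ g : F, χ (a, g) * (θ g * conj (φ g)) ∈ Zc q := by
  have hcen : (a, (1 : F)) ∈ Subgroup.center (A × F) := by
    rw [Subgroup.mem_center_iff]
    rintro ⟨b, g⟩
    exact Prod.ext (ha b).symm (by simp)
  obtain ⟨c, -, hc⟩ := Blocks.CentralizerSum.exists_central_scalar hχ hcen
  have hpow : ∀ n : ℕ, χ ((a, (1 : F)) ^ n) = c ^ n * χ 1 := by
    intro n
    induction n with
    | zero => simp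
    | succ n ih => rw [pow_succ', hc, ih, pow_succ']; ring
  have hcq : c ^ q = 1 := by
    have h1 := hpow q
    have h2 : (a, (1 : F)) ^ q = 1 := Prod.ext hq (by simp)
    rw [h2] at h1
    exact (mul_right_cancel₀ (isIrr_apply_one_ne_zero hχ) ((one_mul _).trans h1)).symm
  have h1 : (Nat.card F : ℂ)⁻¹ * ∑ g : F, χ (a, g) * (θ g * conj (φ g)) =
      c * classInner ((fun g : F => χ (1, g)) * θ) φ := by
    rw [classInner_def, ← mul_assoc, mul_comm c, mul_assoc, Finset.mul_sum (a := c)]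
    congr 1
    refine Finset.sum_congr rfl fun g _ => ?_
    have h2 : χ (a, g) = c * χ (1, g) := by
      rw [← hc]
      congr 1
      exact Prod.ext (by simp) (by simp)
    rw [h2, Pi.mul_apply]
    ring
  rw [h1]
  obtain ⟨n, hn⟩ := gen_inner (gen_mul (gen_of_char
    (isCharacter_comp (MonoidHom.inr A F) (isIrr_isCharacter hχ))) hθ) hφ
  have h3 : classInner ((fun g : F => χ (1, g)) * θ) φ = n := hn
  rw [h3]
  exact mul_mem (root_mem_Zc hcq) (int_mem_Zc q n)

theorem inner_mem [Fintype F] {χ : A × F → ℂ} (hχ : IsCharacter (A × F) χ) {a : A}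
    (ha : ∀ b : A, a * b = b * a) {q : ℕ} (hq : a ^ q = 1) {θ φ : F → ℂ}
    (hθ : IsGeneralizedCharacter F θ) (hφ : IsGeneralizedCharacter F φ) :
    (Nat.card F : ℂ)⁻¹ * ∑ g : F, χ (a, g) * (θ g * conj (φ g)) ∈ Zc q := by
  classical
  have := finite_irr (G := A × F)
  have := Fintype.ofFinite (IrrCharacter (A × F))
  obtain ⟨m, rfl⟩ := exists_nat_comb hχ
  have h1 : (Nat.card F : ℂ)⁻¹ * ∑ g : F, (∑ ψ : IrrCharacter (A × F), m ψ •
      (ψ : A × F → ℂ)) (a, g) * (θ g * conj (φ g)) = ∑ ψ : IrrCharacter (A × F), (m ψ : ℂ) *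
        ((Nat.card F : ℂ)⁻¹ * ∑ g : F, (ψ : A × F → ℂ) (a, g) * (θ g * conj (φ g))) := by
    simp only [Finset.sum_apply, Pi.smul_apply, Finset.sum_mul, Finset.mul_sum]
    rw [Finset.sum_comm]
    refine Finset.sum_congr rfl fun ψ _ => Finset.sum_congr rfl fun g _ => ?_
    rw [nsmul_eq_mul]
    ring
  rw [h1]
  refine sum_mem fun ψ _ => mul_mem ?_ (inner_mem_irr ψ.2 ha hq hθ hφ)
  exact_mod_cast int_mem_Zc q (m ψ)

end Inner

section Cong

variable {p : ℕ} [hp : Fact p.Prime] {M : Ideal AlgInt}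

theorem one_sub_mem_pow (hM : IsPModular p M) {z : ℂ} {n : ℕ} (hz : z ^ p ^ n = 1) :
    InM M (1 - z) := by
  have hmax := hM.2.1
  have hint : IsIntegral ℤ z := by
    refine IsIntegral.of_pow (pow_pos hM.1.pos n) ?_
    rw [hz]
    exact isIntegral_one
  refine ⟨1 - ⟨z, hint⟩, ?_, rfl⟩
  rw [← Ideal.Quotient.eq_zero_iff_mem]
  have hchar : CharP (AlgInt ⧸ M) p := Blocks.Residue.charP_residue hM
  have h1 : (Ideal.Quotient.mk M (1 - ⟨z, hint⟩)) ^ p ^ n = 0 := by
    rw [map_sub, map_one, sub_pow_char_pow, one_pow, ← map_pow]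
    have h2 : (⟨z, hint⟩ : AlgInt) ^ p ^ n = 1 := Subtype.ext hz
    rw [h2, map_one, sub_self]
  have : M.IsPrime := hmax.isPrime
  exact pow_eq_zero_iff (pow_ne_zero n hM.1.ne_zero) |>.1 h1

theorem isIntegral_irr {G : Type*} [Group G] {χ : G → ℂ} (hχ : IsCharacter G χ) [Finite G]
    (g : G) : IsIntegral ℤ (χ g) :=
  Cfsg.Agent.OddOrderCharacters.PF13.SumBound.gen_isIntegral (gen_of_char hχ) g

/-- **The congruence for the irreducible characters of a `p`-group.** -/
theorem avg_congr_irr {Q : Type u} [Group Q] [Finite Q] (hQ : IsPGroup p Q) (hM : IsPModular p M)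
    {α : Q → ℂ} (hα : IsIrrCharacter Q α) (w : Q) :
    InM M (avg (commutator Q) α w - α 1) := by
  classical
  have := Fintype.ofFinite Q
  have := Fintype.ofFinite (commutator Q)
  obtain ⟨d, hd0, hd⟩ := isIrr_apply_one hα
  by_cases h1 : d = 1
  · -- linear
    subst h1
    rw [Nat.cast_one] at hd
    obtain ⟨f, rfl⟩ := Characters.Linear.exists_hom_of_isIrrCharacter hα hd
    have h2 : ∀ k ∈ commutator Q, f k = 1 := by
      intro k hk
      have := Abelianization.commutator_subset_ker f hk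
      exact this
    have h3 : avg (commutator Q) (fun g => (f g : ℂ)) w = f w := by
      refine avg_const _ _ _ _ fun y => ?_
      rw [map_mul, h2 y y.2, one_mul]
    rw [h3, hd]
    obtain ⟨n, hn⟩ := hQ w
    have h4 : (f w : ℂ) ^ p ^ n = 1 := by
      rw [← Units.val_pow_eq_pow_val, ← map_pow, hn, map_one, Units.val_one]
    have h5 := (one_sub_mem_pow hM h4).neg
    rwa [neg_sub] at h5
  · -- non-linear
    have hsum : ∑ n : commutator Q, α n = 0 := by
      by_contra hne
      obtain ⟨α', e⟩ := Blocks.Deflate.exists_deflation (commutator Q) α hα hne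
      apply h1
      have h2 : α 1 = 1 := by
        refine CharactersDeep.FeitLinear.apply_one_eq_one (commutator Q) (fun x y => ?_) hα ?_
        · exact Subgroup.commutator_mem_commutator (Subgroup.mem_top x) (Subgroup.mem_top y)
        · intro k hk
          rw [e]
          change (α' : Q ⧸ commutator Q → ℂ) (k : Q ⧸ commutator Q) =
            (α' : Q ⧸ commutator Q → ℂ) ((1 : Q) : Q ⧸ commutator Q)
          rw [(QuotientGroup.eq_one_iff k).2 hk]
          rfl
      rw [hd] at h2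
      exact_mod_cast h2
    have hchar : IsCharacter Q (fun x => avg (commutator Q) α x) :=
      isCharacter_avg (isIrr_isCharacter hα) (commutator Q) (MonoidHom.id Q) (fun x => by
        rw [Subgroup.normalizer_eq_top]; trivial)
    have h3 : avg (commutator Q) α 1 = 0 := by
      rw [avg_eq_sum]
      simp only [mul_one]
      rw [hsum, mul_zero]
    have h4 : avg (commutator Q) α w = 0 :=
      congrFun (H668.CharPeel.eq_zero_of_apply_one hchar h3) w
    rw [h4, zero_sub, hd]
    -- `p` divides the degree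
    have h5 : p ∣ d := by
      have h6 := Blocks.CentralProduct.degree_dvd_card hα hd
      obtain ⟨n, hn⟩ := (IsPGroup.iff_card (p := p)).1 hQ
      rw [hn] at h6
      obtain ⟨j, -, hj⟩ := (Nat.dvd_prime_pow hp.out).1 h6
      rcases Nat.eq_zero_or_pos j with rfl | hj0
      · exact absurd (by simpa using hj) h1
      · rw [hj]
        exact dvd_pow_self p hj0.ne'
    obtain ⟨e, rfl⟩ := h5
    refine (InM.neg ?_)
    refine ⟨(p : AlgInt) * (e : AlgInt), M.mul_mem_right _ hM.2.2, ?_⟩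
    push_cast
    rfl

/-- The congruence for the characters of a direct product. -/
theorem avg_congr_prod {Q O : Type u} [Group Q] [Finite Q] [Group O] [Finite O]
    [Fintype (commutator Q)] (hQ : IsPGroup p Q) (hM : IsPModular p M)
    {χ : Q × O → ℂ} (hχ : IsCharacter (Q × O) χ) (w : Q) (g : O) :
    InM M ((Nat.card (commutator Q) : ℂ)⁻¹ * ∑ k : commutator Q, χ ((k : Q) * w, g) -
      χ (1, g)) := by
  classical
  have := finite_irr (G := Q × O)
  have := Fintype.ofFinite (IrrCharacter (Q × O))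
  obtain ⟨m, rfl⟩ := exists_nat_comb hχ
  have h1 : (Nat.card (commutator Q) : ℂ)⁻¹ * ∑ k : commutator Q, (∑ ψ : IrrCharacter (Q × O),
      m ψ • (ψ : Q × O → ℂ)) ((k : Q) * w, g) - (∑ ψ : IrrCharacter (Q × O),
      m ψ • (ψ : Q × O → ℂ)) (1, g) = ∑ ψ : IrrCharacter (Q × O),
        ((Nat.card (commutator Q) : ℂ)⁻¹ * ∑ k : commutator Q, (ψ : Q × O → ℂ) ((k : Q) * w, g) -
          (ψ : Q × O → ℂ) (1, g)) * (m ψ : ℂ) := by
    simp only [Finset.sum_apply, Pi.smul_apply, Finset.mul_sum]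
    rw [Finset.sum_comm, ← Finset.sum_sub_distrib]
    refine Finset.sum_congr rfl fun ψ _ => ?_
    rw [sub_mul, Finset.sum_mul]
    congr 1
    · refine Finset.sum_congr rfl fun k _ => ?_
      rw [nsmul_eq_mul]
      ring
    · rw [nsmul_eq_mul, mul_comm]
  rw [h1]
  refine InM.sum _ fun ψ _ => InM.mul ?_ ?_
  · obtain ⟨α, β, hα, hβ, e⟩ := (S0188.result (ψ : Q × O → ℂ)).1 ψ.2
    have h2 := (avg_congr_irr hQ hM hα w).mul (isIntegral_irr (isIrr_isCharacter hβ) g)
    rw [avg_eq_sum, sub_mul] at h2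
    rw [e]
    convert h2 using 2
    rw [mul_assoc, Finset.sum_mul]
  · simpa using (isIntegral_algebraMap (R := ℤ) (x := (m ψ : ℤ)) (A := ℂ))

end Cong

section Main

variable {G : Type u} [Group G] [Finite G] {p : ℕ} [hp : Fact p.Prime] {M : Ideal AlgInt}
  {P K H : Subgroup G} {u : G}

theorem fA_eq [Fintype K] [Fintype (Fx H u)] (f : Fx H u → ℂ) (χ : G → ℂ) :
    fA K (Fx H u) u f χ = (Nat.card (Fx H u) : ℂ)⁻¹ * ∑ g : Fx H u, avg K χ (u * g) * f g := by
  rw [fA, Fintype.sum_prod_type]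
  congr 1
  rw [Finset.mul_sum]
  refine Finset.sum_congr rfl fun g _ => ?_
  rw [avg_eq_sum, Finset.mul_sum, Finset.mul_sum, Finset.sum_mul]
  refine Finset.sum_congr rfl fun k _ => ?_
  change _ * (χ ((k : G) * u * g) * f g) = _
  rw [mul_assoc (k : G)]
  ring

/-- The elements `u ^ i g`. -/
noncomputable def jj (H : Subgroup G) (u : G) : Subgroup.zpowers u × Fx H u →* G :=
  (Subgroup.zpowers u).subtype.noncommCoprod (Fx H u).subtype (by
    rintro ⟨a, i, rfl⟩ g
    exact ((show Commute u (g : G) from (mem_Fx.1 g.2).2.symm).zpow_left i))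

theorem jj_apply (a : Subgroup.zpowers u) (g : Fx H u) : jj H u (a, g) = a * g := rfl

theorem Cf.isCharacter_jj (c : Cf p P K H u) {χ : G → ℂ} (hχ : IsCharacter G χ) :
    IsCharacter (Subgroup.zpowers u × Fx H u) (fun x => avg K χ (jj H u x)) := by
  refine isCharacter_avg hχ K (jj H u) ?_
  rintro ⟨a, g⟩
  rw [jj_apply]
  have hN : Subgroup.normalizer (P : Set G) ≤ Subgroup.normalizer (K : Set G) := by
    intro x hx
    rw [Subgroup.mem_normalizer_iff]
    intro k
    refine ⟨fun hk => c.nK x hx k hk, fun hk => ?_⟩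
    have h1 := c.nK' hx hk
    have h2 : x⁻¹ * (x * k * x⁻¹) * x = k := by group
    rwa [h2] at h1
  refine hN (mul_mem ?_ (c.HN (mem_Fx.1 g.2).1))
  exact (Subgroup.zpowers_le.2 (c.PN c.uP)) a.2

theorem Cf.fA_mem (c : Cf p P K H u) [Fintype K] [Fintype (Fx H u)] {κ φ : Fx H u → ℂ}
    (hκ : U1 p (Fx H u) κ) (hφ : IsGeneralizedCharacter (Fx H u) φ) {χ : G → ℂ}
    (hχ : IsCharacter G χ) :
    fA K (Fx H u) u (fun g => κ g * conj (φ g)) χ ∈ Zc (p * Nat.card G) := by
  classical
  obtain ⟨θ, hθ, e⟩ := hκ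
  have hΨ := c.isCharacter_jj hχ
  let a : Subgroup.zpowers u := ⟨u, Subgroup.mem_zpowers u⟩
  have ha : ∀ b : Subgroup.zpowers u, a * b = b * a := by
    rintro ⟨b, i, rfl⟩
    apply Subtype.ext
    exact ((Commute.refl u).zpow_right i).eq
  have haq : a ^ (p * Nat.card G) = 1 := by
    apply Subtype.ext
    change u ^ (p * Nat.card G) = 1
    rw [mul_comm, pow_mul, pow_card_eq_one', one_pow]
  have h1 : fA K (Fx H u) u (fun g => κ g * conj (φ g)) χ = ∑ k : ZMod p,
      (ZMod.stdAddChar k : ℂ) * ((Nat.card (Fx H u) : ℂ)⁻¹ * ∑ g : Fx H u,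
        avg K χ (jj H u (a, g)) * (θ k g * conj (φ g))) := by
    rw [fA_eq]
    simp only [e, Finset.sum_mul, Finset.mul_sum]
    rw [Finset.sum_comm]
    refine Finset.sum_congr rfl fun k _ => Finset.sum_congr rfl fun g _ => ?_
    rw [jj_apply]
    ring
  rw [h1]
  refine sum_mem fun k _ => mul_mem ?_ (inner_mem hΨ ha haq (hθ k) hφ)
  apply root_mem_Zc
  rw [pow_mul, ← AddChar.map_nsmul_eq_pow, nsmul_eq_mul, ZMod.natCast_self, zero_mul,
    AddChar.map_zero_eq_one, one_pow]

/-- **The congruence.** -/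
theorem Cf.fA_congr (c : Cf p P K H u) (hK : K = (commutator P).map P.subtype) [Fintype K]
    [Fintype (Fx H u)] (hM : IsPModular p M) {κ φ : Fx H u → ℂ}
    (hφ : IsGeneralizedCharacter (Fx H u) φ)
    (hκ1 : ∀ g : Fx H u, (g : G) ∈ Subgroup.centralizer (P : Set G) → κ g = 1)
    (hκ2 : ∀ g : Fx H u, (g : G) ∉ Subgroup.centralizer (P : Set G) → ∃ y : ℂ, IsIntegral ℤ y ∧
      κ g = (1 - (ZMod.stdAddChar (1 : ZMod p) : ℂ)) * y) {χ : G → ℂ} (hχ : IsCharacter G χ)
    [DecidablePred fun g : G => g ∈ Subgroup.centralizer (P : Set G)] :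
    InM M ((Nat.card (Fx H u) : ℂ) * fA K (Fx H u) u (fun g => κ g * conj (φ g)) χ -
      ∑ g : Fx H u, if (g : G) ∈ Subgroup.centralizer (P : Set G) then
        χ g * conj (φ g) else 0) := by
  have hF0 : (Nat.card (Fx H u) : ℂ) ≠ 0 := by exact_mod_cast Nat.card_pos.ne'
  rw [fA_eq, mul_inv_cancel_left₀ hF0, ← Finset.sum_sub_distrib]
  have hφint : ∀ g, IsIntegral ℤ (conj (φ g)) := fun g =>
    Cfsg.Agent.OddOrderCharacters.PF13.SumBound.gen_isIntegral (gen_conjFun hφ) g
  refine InM.sum _ fun g _ => ?_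
  split
  · rename_i hg
    rw [hκ1 g hg, one_mul, ← sub_mul]
    refine InM.mul ?_ (hφint g)
    let Oc : Subgroup G := Fx H u ⊓ Subgroup.centralizer (P : Set G)
    let j : P × Oc →* G := P.subtype.noncommCoprod Oc.subtype (by
      intro v g
      exact (Subgroup.mem_centralizer_iff.1 g.2.2 v v.2))
    have hj : ∀ v g, j (v, g) = v * g := fun v g => rfl
    have := Fintype.ofFinite (commutator P)
    have h1 := avg_congr_prod c.pP hM (isCharacter_comp j hχ) ⟨u, c.uP⟩ ⟨g, g.2, hg⟩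
    have h2 : avg K χ (u * g) = (Nat.card (commutator P) : ℂ)⁻¹ * ∑ k : commutator P,
        (χ ∘ j) ((k : P) * ⟨u, c.uP⟩, ⟨g, g.2, hg⟩) := by
      subst hK
      rw [avg_eq_sum]
      have e := ((commutator P).equivMapOfInjective P.subtype P.subtype_injective)
      rw [← Nat.card_congr e.toEquiv]
      congr 1
      symm
      refine Fintype.sum_equiv ((commutator P).equivMapOfInjective P.subtype
        P.subtype_injective).toEquiv _ _ fun k => ?_
      rw [Function.comp_apply, hj]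
      change χ ((k : P) * u * g) = χ (((k : P) : G) * (u * g))
      rw [mul_assoc]
    have h3 : χ g = (χ ∘ j) (1, ⟨g, g.2, hg⟩) := by
      rw [Function.comp_apply, hj]
      congr 1
      exact (one_mul _).symm
    rw [h2, h3]
    exact h1
  · rename_i hg
    obtain ⟨y, hy, e⟩ := hκ2 g hg
    rw [sub_zero, e]
    have h1 : avg K χ (u * g) * ((1 - (ZMod.stdAddChar (1 : ZMod p) : ℂ)) * y * conj (φ g)) =
        (1 - (ZMod.stdAddChar (1 : ZMod p) : ℂ)) * (avg K χ (u * g) * y * conj (φ g)) := by ring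
    rw [h1]
    refine InM.mul (one_sub_mem hM ?_) (IsIntegral.mul (IsIntegral.mul ?_ hy) (hφint g))
    · rw [← AddChar.map_nsmul_eq_pow, nsmul_eq_mul, ZMod.natCast_self, zero_mul,
        AddChar.map_zero_eq_one]
    · exact isIntegral_irr (c.isCharacter_jj hχ) (⟨u, Subgroup.mem_zpowers u⟩, g)

end Main

end Cfsg.Agent.H657.TIB
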