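import Cfsg.Agent.H657.TIB.Int
import Cfsg.Agent.H657.TIB.Exist
import Cfsg.Agent.S0908
import Cfsg.Agent.S0012

/-!
# `k₀(B) ≤ |P : P'|` for TI Sylow subgroups
-/

set_option autoImplicit false
set_option linter.unusedSectionVars false

open Cfsg Cfsg.Agent.H991.KGV Cfsg.Agent.OddOrderCharacters.VChar
open Cfsg.Agent.Characters.Core Cfsg.Agent.Classification.BGAverage
open scoped ComplexConjugate Pointwise

universe u

namespace Cfsg.Agent.H657.TIB

variable {G : Type u} [Group G] [Finite G] {p : ℕ} [hp : Fact p.Prime] {M : Ideal AlgInt}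

section Alpha

variable {P K H : Subgroup G} {u : G}

/-- The action of `F` on `P`. -/
def alP (P H : Subgroup G) (u : G) (hHN : H ≤ Subgroup.normalizer (P : Set G)) :
    Fx H u →* MulAut P :=
  MonoidHom.mk' (fun g =>
    { toFun := fun v => ⟨(g : G) * v * (g : G)⁻¹,
        (Subgroup.mem_normalizer_iff.1 (hHN (mem_Fx.1 g.2).1) v).1 v.2⟩
      invFun := fun v => ⟨(g : G)⁻¹ * v * (g : G)⁻¹⁻¹,
        (Subgroup.mem_normalizer_iff.1 (inv_mem (hHN (mem_Fx.1 g.2).1)) v).1 v.2⟩
      left_inv := fun v => Subtype.ext (by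
        change (g : G)⁻¹ * ((g : G) * v * (g : G)⁻¹) * (g : G)⁻¹⁻¹ = v
        group)
      right_inv := fun v => Subtype.ext (by
        change (g : G) * ((g : G)⁻¹ * v * (g : G)⁻¹⁻¹) * (g : G)⁻¹ = v
        group)
      map_mul' := fun v w => Subtype.ext (by
        change (g : G) * (v * w) * (g : G)⁻¹ = (g * v * (g : G)⁻¹) * (g * w * (g : G)⁻¹)
        group) })
    (fun a b => by
      ext v
      change ((a : G) * b) * v * ((a : G) * b)⁻¹ = a * (b * v * (b : G)⁻¹) * (a : G)⁻¹
      group)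

theorem alP_apply (hHN : H ≤ Subgroup.normalizer (P : Set G)) (g : Fx H u) (v : P) :
    ((alP P H u hHN g v : P) : G) = g * v * (g : G)⁻¹ := rfl

/-- The action on the abelianization. -/
noncomputable def alV (P H : Subgroup G) (u : G) (hHN : H ≤ Subgroup.normalizer (P : Set G)) :
    Fx H u →* MulAut (Abelianization P) :=
  MonoidHom.mk' (fun g => (alP P H u hHN g).abelianizationCongr) (fun a b => by
    ext v
    obtain ⟨x, rfl⟩ := QuotientGroup.mk_surjective v
    rw [map_mul]
    rfl)

theorem alV_of (hHN : H ≤ Subgroup.normalizer (P : Set G)) (g : Fx H u) (v : P) :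
    alV P H u hHN g (Abelianization.of v) = Abelianization.of (alP P H u hHN g v) := rfl

theorem mem_comm_iff' (v : P) : v ∈ commutator P ↔ (v : G) ∈ (commutator P).map P.subtype := by
  rw [mem_comm_iff]
  exact ⟨fun h => ⟨v.2, h⟩, fun ⟨_, h⟩ => h⟩

theorem fix_iff (hHN : H ≤ Subgroup.normalizer (P : Set G)) (g : Fx H u) (v : P) :
    (v : G) * g * (v : G)⁻¹ * (g : G)⁻¹ ∈ (commutator P).map P.subtype ↔
      alV P H u hHN g (Abelianization.of v) = Abelianization.of v := by
  have h1 : (v : G) * g * (v : G)⁻¹ * (g : G)⁻¹ = ((v * (alP P H u hHN g v)⁻¹ : P) : G) := by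
    rw [Subgroup.coe_mul, Subgroup.coe_inv, alP_apply]
    group
  rw [h1, ← mem_comm_iff', alV_of, ← Abelianization.ker_of, MonoidHom.mem_ker, map_mul, map_inv,
    mul_inv_eq_one]
  exact eq_comm

theorem card_fix_eq (hHN : H ≤ Subgroup.normalizer (P : Set G)) (g : Fx H u) :
    Nat.card {v : P // (v : G) * g * (v : G)⁻¹ * (g : G)⁻¹ ∈ (commutator P).map P.subtype} =
      Nat.card ((commutator P).map P.subtype) *
        Nat.card {v : Abelianization P // alV P H u hHN g v = v} := by
  have h1 : Nat.card ((commutator P).map P.subtype) = Nat.card (commutator P) :=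
    Subgroup.card_map_of_injective P.subtype_injective
  rw [h1, ← Nat.card_prod]
  refine Nat.card_congr (Equiv.trans (Equiv.subtypeEquivRight fun v => ?_)
    (QuotientGroup.preimageMkEquivSubgroupProdSet (commutator P)
      {v : P ⧸ commutator P | alV P H u hHN g v = v}))
  exact fix_iff hHN g v

/-- `α g = 1` if and only if `g` centralizes `P`. -/
theorem alV_eq_one_iff (hP : IsPGroup p P) (hH : ¬ p ∣ Nat.card H)
    (hHN : H ≤ Subgroup.normalizer (P : Set G)) (g : Fx H u) :
    alV P H u hHN g = 1 ↔ (g : G) ∈ Subgroup.centralizer (P : Set G) := by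
  constructor
  · intro h
    let act : MulDistribMulAction (Subgroup.zpowers g) P :=
      MulDistribMulAction.compHom P ((alP P H u hHN).comp (Subgroup.zpowers g).subtype)
    have hsm : ∀ (a : Subgroup.zpowers g) (v : P), a • v = alP P H u hHN a v := fun _ _ => rfl
    have hcop : (Nat.card (Subgroup.zpowers g)).Coprime (Nat.card P) := by
      obtain ⟨n, hn⟩ := (IsPGroup.iff_card (p := p)).1 hP
      rw [hn]
      refine Nat.Coprime.pow_right n (Nat.Coprime.symm ?_)
      refine (Nat.Prime.coprime_iff_not_dvd hp.out).2 (fun hd => hH (hd.trans ?_))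
      exact ((Subgroup.zpowers g).card_subgroup_dvd_card).trans
        (Subgroup.card_dvd_of_le inf_le_left)
    have hnil : Group.IsNilpotent P := hP.isNilpotent
    have hsolv : Group.IsSolvable P := inferInstance
    have h1 : ∀ (a : Subgroup.zpowers g) (v : P), v⁻¹ * (a • v) ∈ commutator P := by
      rintro ⟨a, i, rfl⟩ v
      rw [hsm, ← Abelianization.ker_of, MonoidHom.mem_ker, map_mul, map_inv, ← alV_of]
      have h2 : alV P H u hHN (g ^ i) = 1 := by rw [map_zpow, h, one_zpow]
      change (Abelianization.of v)⁻¹ * alV P H u hHN (g ^ i) (Abelianization.of v) = 1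
      rw [h2]
      simp
    let C : Subgroup P := {
      carrier := {v | alP P H u hHN g v = v}
      one_mem' := map_one _
      mul_mem' := fun {a b} ha hb => by
        change alP P H u hHN g (a * b) = a * b
        rw [map_mul, show alP P H u hHN g a = a from ha, show alP P H u hHN g b = b from hb]
      inv_mem' := fun {a} ha => by
        change alP P H u hHN g a⁻¹ = a⁻¹
        rw [map_inv, show alP P H u hHN g a = a from ha] }
    have h3 : C ⊔ commutator P = ⊤ := by
      rw [eq_top_iff]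
      intro v _
      obtain ⟨c, hc, hcv⟩ := H532.CopAct.exists_fixed_lift (A := Subgroup.zpowers g) (G := P)
        hcop (Or.inr hsolv) (commutator P) (fun a x hx => by
          have := h1 a x
          have h4 : a • x = x * (x⁻¹ * (a • x)) := by group
          rw [h4]
          exact mul_mem hx this) v (fun a => h1 a v)
      have hcC : c ∈ C := hc ⟨g, Subgroup.mem_zpowers g⟩
      have h5 : v = c * (v⁻¹ * c)⁻¹ := by group
      rw [h5]
      exact mul_mem (Subgroup.mem_sup_left hcC) (Subgroup.mem_sup_right (inv_mem hcv))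
    have h6 : C = ⊤ := by
      apply frattini_nongenerating
      rw [eq_top_iff, ← h3]
      exact sup_le_sup_left (S0012.result p hP).1 C
    rw [Subgroup.mem_centralizer_iff]
    intro v hv
    have h7 : (⟨v, hv⟩ : P) ∈ C := by rw [h6]; trivial
    have h8 : ((alP P H u hHN g ⟨v, hv⟩ : P) : G) = v := congrArg Subtype.val h7
    rw [alP_apply] at h8
    exact (mul_inv_eq_iff_eq_mul.1 h8).symm
  · intro h
    ext v
    obtain ⟨x, rfl⟩ := QuotientGroup.mk_surjective v
    change Abelianization.of (alP P H u hHN g x) = Abelianization.of x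
    congr 1
    apply Subtype.ext
    rw [alP_apply]
    have := Subgroup.mem_centralizer_iff.1 h x x.2
    rw [← this, mul_inv_cancel_right]

end Alpha

section Phi

/-- Choice of `φ`. -/
theorem exists_phi {F : Type u} [Group F] [Fintype F] (hM : IsPModular p M)
    (hF : ¬ p ∣ Nat.card F) (O : F → Prop) [DecidablePred O] (hO : O 1) (f : F → ℂ)
    {n : ℕ} (hn : f 1 = n) (hpn : ¬ p ∣ n) :
    ∃ φ : IrrCharacter F, ¬ InM M (∑ g : F, if O g then f g * conj ((φ : F → ℂ) g) else 0) := by
  classical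
  have := finite_irr (G := F)
  have := Fintype.ofFinite (IrrCharacter F)
  by_contra hcon
  push Not at hcon
  have h1 : ∑ φ : IrrCharacter F, (∑ g : F, if O g then f g * conj ((φ : F → ℂ) g) else 0) *
      (φ : F → ℂ) 1 = f 1 * Nat.card F := by
    simp only [Finset.sum_mul]
    rw [Finset.sum_comm, Finset.sum_eq_single 1]
    · simp only [if_pos hO]
      have h2 := S0145.sum_irr_mul_conj (1 : F) 1
      rw [if_pos (IsConj.refl 1)] at h2
      have h3 : Nat.card (Subgroup.centralizer ({1} : Set F)) = Nat.card F := by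
        rw [show Subgroup.centralizer ({1} : Set F) = ⊤ by
          rw [eq_top_iff]; intro x _; rw [Subgroup.mem_centralizer_singleton_iff]; simp]
        exact Subgroup.card_top
      rw [h3] at h2
      rw [← h2, Finset.mul_sum]
      refine Finset.sum_congr rfl fun φ _ => ?_
      ring
    · intro g _ hg
      by_cases hOg : O g
      · simp only [if_pos hOg]
        have h2 := S0145.sum_irr_mul_conj (1 : F) g
        rw [if_neg (fun h : IsConj (1 : F) g => hg (isConj_one_right.1 h))] at h2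
        have h3 : ∑ φ : IrrCharacter F, f g * conj ((φ : F → ℂ) g) * (φ : F → ℂ) 1 =
            f g * ∑ φ : IrrCharacter F, (φ : F → ℂ) 1 * conj ((φ : F → ℂ) g) := by
          rw [Finset.mul_sum]
          refine Finset.sum_congr rfl fun φ _ => ?_
          ring
        rw [h3, h2, mul_zero]
      · simp [if_neg hOg]
    · intro h
      exact absurd (Finset.mem_univ _) h
  have h2 : InM M (f 1 * Nat.card F) := by
    rw [← h1]
    exact InM.sum _ fun φ _ => (hcon φ).mul (isIntegral_irr (isIrr_isCharacter φ.2) 1)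
  rw [hn] at h2
  have h3 : InM M (((n * Nat.card F : ℕ) : ℤ) : ℂ) := by
    push_cast
    exact h2
  have h4 := InM.int hM h3
  rw [Int.natCast_dvd_natCast, hp.out.dvd_mul] at h4
  exact h4.elim hpn hF

/-- The values at the elements centralizing a Sylow subgroup. -/
theorem cong_val (hM : IsPModular p M) (P : Sylow p G) {χ χ₀ : IrrCharacter G}
    (h : SameBlock M (χ : G → ℂ) (χ₀ : G → ℂ)) {g : G}
    (hg : g ∈ Subgroup.centralizer ((P : Subgroup G) : Set G)) :
    InM M ((χ : G → ℂ) g * (χ₀ : G → ℂ) 1 - (χ₀ : G → ℂ) g * (χ : G → ℂ) 1) := by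
  have h1 := h g
  unfold centralChar at h1
  set i := (Subgroup.centralizer ({g} : Set G)).index with hi
  have hpi : ¬ p ∣ i := by
    intro hd
    apply P.not_dvd_index
    refine hd.trans (Subgroup.index_dvd_of_le ?_)
    intro x hx
    rw [Subgroup.mem_centralizer_singleton_iff]
    exact (Subgroup.mem_centralizer_iff.1 hg x hx)
  have hχ := isIrr_apply_one_ne_zero χ.2
  have hχ₀ := isIrr_apply_one_ne_zero χ₀.2
  have int : ∀ (ψ : IrrCharacter G) (x : G), IsIntegral ℤ ((ψ : G → ℂ) x) := fun ψ x =>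
    isIntegral_irr (isIrr_isCharacter ψ.2) x
  have h2 : MemLocalIdeal M ((i : ℂ) * ((χ : G → ℂ) g * (χ₀ : G → ℂ) 1 -
      (χ₀ : G → ℂ) g * (χ : G → ℂ) 1)) := by
    have h3 := Blocks.LocalRing.memLocalIdeal_mul_right hM h1
      (Blocks.LocalRing.memLocalRing_of_isIntegral hM ((int χ 1).mul (int χ₀ 1)))
    convert h3 using 1
    field_simp
  have hint : IsIntegral ℤ ((χ : G → ℂ) g * (χ₀ : G → ℂ) 1 - (χ₀ : G → ℂ) g * (χ : G → ℂ) 1) :=
    ((int χ g).mul (int χ₀ 1)).sub ((int χ₀ g).mul (int χ 1))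
  have h4 := (Blocks.LocalRing.memLocalIdeal_mul_iff hM
    (Blocks.LocalRing.memLocalRing_natCast hM i)
    (Blocks.LocalRing.memLocalRing_of_isIntegral hM hint)).1 h2
  rcases h4 with h4 | h4
  · exact absurd ((Blocks.LocalRing.memLocalIdeal_natCast_iff hM i).1 h4) hpi
  · exact ⟨⟨_, hint⟩, (Blocks.LocalRing.memLocalIdeal_coe_iff hM ⟨_, hint⟩).1 h4, rfl⟩

end Phi

/-- **The functional for a character `φ`.** -/
theorem Cf.sum_eq [Fintype G] [Fintype (IrrCharacter G)] {P H : Subgroup G} {u : G}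
    (c : Cf p P ((commutator P).map P.subtype) H u) [Fintype ((commutator P).map P.subtype)]
    [Fintype (Fx H u)] {κ φ : Fx H u → ℂ} (D : Kap p (alV P H u c.HN) κ)
    (hφ : IsIrrCharacter (Fx H u) φ) :
    ∑ χ : IrrCharacter G, ‖fA ((commutator P).map P.subtype) (Fx H u) u
      (fun g => κ g * conj (φ g)) (χ : G → ℂ)‖ ^ 2 = ((commutator P).index : ℝ) := by
  classical
  have hcl : IsClassFunction (Fx H u) (fun g => κ g * conj (φ g)) := by
    intro g h
    obtain ⟨θ, hθ, e⟩ := D.gen
    change κ (h * g * h⁻¹) * conj (φ (h * g * h⁻¹)) = κ g * conj (φ g)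
    rw [isIrr_isClassFunction hφ, e, e]
    congr 1
    refine Finset.sum_congr rfl fun k _ => ?_
    rw [gen_isClassFunction (hθ k)]
  rw [c.sum_fA _ hcl]
  have hF0 : (Nat.card (Fx H u) : ℝ) ≠ 0 := by exact_mod_cast Nat.card_pos.ne'
  have hK0 : (Nat.card ((commutator P).map P.subtype) : ℝ) ≠ 0 := by
    exact_mod_cast Nat.card_pos.ne'
  have h1 : ∀ g : Fx H u, ‖κ g * conj (φ g)‖ ^ 2 *
      (Nat.card {v : P // (v : G) * g * (v : G)⁻¹ * (g : G)⁻¹ ∈
        (commutator P).map P.subtype} : ℝ) =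
      (Nat.card ((commutator P).map P.subtype) : ℝ) * ((Nat.card (Abelianization P) : ℝ) *
        Complex.normSq (φ g)) := by
    intro g
    rw [card_fix_eq c.HN g, norm_mul, RCLike.norm_conj, mul_pow, Nat.cast_mul, ← D.norm g,
      Complex.normSq_eq_norm_sq]
    ring
  simp only [h1]
  rw [← Finset.mul_sum, inv_mul_cancel_left₀ hK0, ← Finset.mul_sum]
  have h2 : (Nat.card (Fx H u) : ℝ)⁻¹ * ∑ g : Fx H u, Complex.normSq (φ g) = 1 := by
    have h3 := classInner_self_eq_ofReal φ
    rw [classInner_irr_self hφ] at h3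
    exact_mod_cast h3.symm
  have h3 : Nat.card (Abelianization P) = (commutator P).index := rfl
  calc (Nat.card (Fx H u) : ℝ)⁻¹ * ((Nat.card (Abelianization P) : ℝ) *
        ∑ g : Fx H u, Complex.normSq (φ g)) = (Nat.card (Abelianization P) : ℝ) *
          ((Nat.card (Fx H u) : ℝ)⁻¹ * ∑ g : Fx H u, Complex.normSq (φ g)) := by ring
    _ = _ := by rw [h2, mul_one, h3]

/-- **The number of the characters of degree prime to `p` in a block.** -/
theorem card_pprime_le (hM : IsPModular p M) (P : Sylow p G) (hP1 : (P : Subgroup G) ≠ ⊥)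
    (hTI : ∀ g : G, g ∉ Subgroup.normalizer ((P : Subgroup G) : Set G) →
      (P : Subgroup G) ⊓ (MulAut.conj g • (P : Subgroup G)) = ⊥) (χ₀ : IrrCharacter G) :
    Nat.card {χ : IrrCharacter G // χ ∈ blockOf M (χ₀ : G → ℂ) ∧
      ¬ p ∣ charDegree (χ : G → ℂ)} ≤ (commutator (P : Subgroup G)).index := by
  classical
  have := Fintype.ofFinite G
  have := finite_irr (G := G)
  have := Fintype.ofFinite (IrrCharacter G)
  obtain ⟨H, u, c⟩ := exists_cf P hP1 hTI
  set Q : Subgroup G := (P : Subgroup G) with hQ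
  have := Fintype.ofFinite ((commutator Q).map Q.subtype)
  have := Fintype.ofFinite (Fx H u)
  by_cases hex : ∃ χ₁ : IrrCharacter G, χ₁ ∈ blockOf M (χ₀ : G → ℂ) ∧
      ¬ p ∣ charDegree (χ₁ : G → ℂ)
  swap
  · have : IsEmpty {χ : IrrCharacter G // χ ∈ blockOf M (χ₀ : G → ℂ) ∧
      ¬ p ∣ charDegree (χ : G → ℂ)} := ⟨fun x => hex ⟨x.1, x.2⟩⟩
    rw [Nat.card_of_isEmpty]
    exact Nat.zero_le _
  obtain ⟨χ₁, hχ₁, hd₁⟩ := hex
  have hFH : ¬ p ∣ Nat.card (Fx H u) := fun h =>
    c.pH (h.trans (Subgroup.card_dvd_of_le inf_le_left))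
  have hV : IsPGroup p (Abelianization Q) :=
    c.pP.of_surjective Abelianization.of (QuotientGroup.mk_surjective)
  obtain ⟨κ, D⟩ := exists_kap (Nat.card (Abelianization Q)) (alV Q H u c.HN) le_rfl hV hFH
  have hdeg : ∀ χ : IrrCharacter G, (χ : G → ℂ) 1 = (charDegree (χ : G → ℂ) : ℂ) := fun χ =>
    Blocks.Basic.irr_one_eq_charDegree χ.2
  obtain ⟨φ, hφ⟩ := exists_phi (p := p) hM hFH
    (fun g : Fx H u => (g : G) ∈ Subgroup.centralizer (Q : Set G)) (one_mem _)
    (fun g : Fx H u => (χ₁ : G → ℂ) g) (n := charDegree (χ₁ : G → ℂ)) (hdeg χ₁) hd₁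
  have hgen := gen_of_irr φ.2
  set a : IrrCharacter G → ℂ := fun χ => fA ((commutator Q).map Q.subtype) (Fx H u) u
    (fun g => κ g * conj ((φ : Fx H u → ℂ) g)) (χ : G → ℂ) with ha
  have hq : p * Nat.card G ≠ 0 := mul_ne_zero hp.out.ne_zero Nat.card_pos.ne'
  have h1 := card_ne_zero_le hq a (fun χ => c.fA_mem D.gen hgen (isIrr_isCharacter χ.2))
    (commutator Q).index (c.sum_eq D φ.2)
  refine le_trans (Nat.card_le_card_of_injective (fun χ : {χ : IrrCharacter G //
    χ ∈ blockOf M (χ₀ : G → ℂ) ∧ ¬ p ∣ charDegree (χ : G → ℂ)} =>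
      (⟨χ.1, ?_⟩ : {χ : IrrCharacter G // a χ ≠ 0})) ?_) h1
  · obtain ⟨χ, hχ, hd⟩ := χ
    intro h0
    change a χ = 0 at h0
    have h2 := c.fA_congr rfl hM hgen (κ := κ)
      (fun g hg => D.one g ((alV_eq_one_iff c.pP c.pH c.HN g).2 hg))
      (fun g hg => D.ideal g (fun h => hg ((alV_eq_one_iff c.pP c.pH c.HN g).1 h)))
      (isIrr_isCharacter χ.2)
    have h3 : InM M (∑ g : Fx H u, if (g : G) ∈ Subgroup.centralizer (Q : Set G) then
        (χ : G → ℂ) g * conj ((φ : Fx H u → ℂ) g) else 0) := by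
      have h4 : fA ((commutator Q).map Q.subtype) (Fx H u) u
        (fun g => κ g * conj ((φ : Fx H u → ℂ) g)) (χ : G → ℂ) = 0 := h0
      rw [h4, mul_zero, zero_sub] at h2
      have h5 := h2.neg
      rwa [neg_neg] at h5
    -- compare with `χ₁`
    have hsame : SameBlock M (χ : G → ℂ) (χ₁ : G → ℂ) := by
      intro g
      have e1 := hχ g
      have e2 := hχ₁ g
      have e3 := Blocks.LocalRing.memLocalIdeal_sub hM e2 e1
      convert e3 using 1
      ring
    apply hφ
    have hval : ∀ g : Fx H u, (g : G) ∈ Subgroup.centralizer (Q : Set G) →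
        InM M ((χ : G → ℂ) g * (χ₁ : G → ℂ) 1 - (χ₁ : G → ℂ) g * (χ : G → ℂ) 1) :=
      fun g hg => cong_val hM P hsame hg
    have hcint : ∀ g : Fx H u, IsIntegral ℤ (conj ((φ : Fx H u → ℂ) g)) := fun g =>
      Cfsg.Agent.OddOrderCharacters.PF13.SumBound.gen_isIntegral (gen_conjFun hgen) g
    have h6 : InM M ((∑ g : Fx H u, if (g : G) ∈ Subgroup.centralizer (Q : Set G) then
        (χ : G → ℂ) g * conj ((φ : Fx H u → ℂ) g) else 0) * (χ₁ : G → ℂ) 1 -
        (∑ g : Fx H u, if (g : G) ∈ Subgroup.centralizer (Q : Set G) then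
        (χ₁ : G → ℂ) g * conj ((φ : Fx H u → ℂ) g) else 0) * (χ : G → ℂ) 1) := by
      rw [Finset.sum_mul, Finset.sum_mul, ← Finset.sum_sub_distrib]
      refine InM.sum _ fun g _ => ?_
      by_cases hg : (g : G) ∈ Subgroup.centralizer (Q : Set G)
      · simp only [if_pos hg]
        have h7 := (hval g hg).mul (hcint g)
        convert h7 using 1
        ring
      · simp only [if_neg hg, zero_mul, sub_zero]
        exact InM.zero
    have h8 : InM M ((∑ g : Fx H u, if (g : G) ∈ Subgroup.centralizer (Q : Set G) then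
        (χ₁ : G → ℂ) g * conj ((φ : Fx H u → ℂ) g) else 0) * (χ : G → ℂ) 1) := by
      have h9 := (h3.mul (isIntegral_irr (isIrr_isCharacter χ₁.2) 1)).sub h6
      rwa [sub_sub_cancel] at h9
    -- cancel `χ(1)`
    have hsint : IsIntegral ℤ (∑ g : Fx H u, if (g : G) ∈ Subgroup.centralizer (Q : Set G) then
        (χ₁ : G → ℂ) g * conj ((φ : Fx H u → ℂ) g) else 0) := by
      refine IsIntegral.sum _ fun g _ => ?_
      split
      · exact (isIntegral_irr (isIrr_isCharacter χ₁.2) (g : G)).mul (hcint g)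
      · exact isIntegral_zero
    obtain ⟨b, hb, e⟩ := h8
    have hprime : M.IsPrime := hM.2.1.isPrime
    have e' : b = ⟨_, hsint⟩ * ((charDegree (χ : G → ℂ) : ℕ) : AlgInt) := by
      apply Subtype.ext
      rw [e, hdeg χ]
      rfl
    rw [e'] at hb
    rcases hprime.mem_or_mem hb with h10 | h10
    · exact ⟨_, h10, rfl⟩
    · exact absurd ((Blocks.LocalRing.natCast_mem_iff hM _).1 h10) hd
  · intro x y hxy
    exact Subtype.ext (congrArg (fun z => z.1) hxy)

/-- In a block whose defect group is a Sylow subgroup the characters of height zero are those of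
degree prime to `p`. -/
theorem not_dvd_of_height_zero (hM : IsPModular p M) (P : Sylow p G) {B : Set (IrrCharacter G)}
    (hB : IsPBlock M B) (hD : IsDefectGroup p M B (P : Subgroup G)) {χ : IrrCharacter G}
    (h0 : blockHeight p B (χ : G → ℂ) = 0) : ¬ p ∣ charDegree (χ : G → ℂ) := by
  have h1 := S0908.result p M hM B hB _ hD
  have h2 : Nat.card (P : Subgroup G) = p ^ (Nat.card G).factorization p := P.card_eq_multiplicity
  rw [h2] at h1
  have h3 := Nat.pow_right_injective hp.out.two_le h1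
  unfold blockDefect at h3
  unfold blockHeight at h0
  set s := sInf ((fun ψ : IrrCharacter G => (charDegree (ψ : G → ℂ)).factorization p) '' B)
  have hd := Blocks.Basic.charDegree_pos χ.2
  by_cases hcard : (Nat.card G).factorization p = 0
  · intro h4
    have h5 := h4.trans (Blocks.CentralProduct.degree_dvd_card χ.2
      (Blocks.Basic.irr_one_eq_charDegree χ.2))
    have h6 := (hp.out.dvd_iff_one_le_factorization Nat.card_pos.ne').1 h5
    omega
  · intro h4
    have h6 := (hp.out.dvd_iff_one_le_factorization hd.ne').1 h4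
    have h7 : s = 0 := by
      by_contra hs
      have : (Nat.card G).factorization p = (Nat.card G).factorization p - s := h3
      omega
    omega

/-- **`k₀(B) ≤ |P : P'|`** for a block with defect group a TI Sylow subgroup `P ≠ 1`. -/
theorem k0_le (hM : IsPModular p M) (P : Sylow p G) (hP1 : (P : Subgroup G) ≠ ⊥)
    (hTI : ∀ g : G, g ∉ Subgroup.normalizer ((P : Subgroup G) : Set G) →
      (P : Subgroup G) ⊓ (MulAut.conj g • (P : Subgroup G)) = ⊥) (B : Set (IrrCharacter G))
    (hB : IsPBlock M B) (hD : IsDefectGroup p M B (P : Subgroup G)) :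
    Nat.card {χ : IrrCharacter G // χ ∈ B ∧ blockHeight p B (χ : G → ℂ) = 0} ≤
      (commutator (P : Subgroup G)).index := by
  obtain ⟨χ₀, rfl⟩ := hB
  have := finite_irr (G := G)
  refine le_trans (Nat.card_le_card_of_injective (fun χ : {χ : IrrCharacter G //
    χ ∈ blockOf M (χ₀ : G → ℂ) ∧ blockHeight p (blockOf M (χ₀ : G → ℂ)) (χ : G → ℂ) = 0} =>
      (⟨χ.1, χ.2.1, not_dvd_of_height_zero hM P ⟨χ₀, rfl⟩ hD χ.2.2⟩ : {χ : IrrCharacter G //
        χ ∈ blockOf M (χ₀ : G → ℂ) ∧ ¬ p ∣ charDegree (χ : G → ℂ)})) ?_)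
    (card_pprime_le hM P hP1 hTI χ₀)
  intro x y hxy
  exact Subtype.ext (congrArg (fun z => z.1) hxy)

end Cfsg.Agent.H657.TIB
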