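import Cfsg.Agent.H657.TIB.Fus

/-!
# The sum formula
-/

set_option autoImplicit false
set_option linter.unusedSectionVars false

open Cfsg
open scoped ComplexConjugate Pointwise

universe u

namespace Cfsg.Agent.H657.TIB

section Gen

variable {G : Type u} [Group G] [Fintype G] [Fintype (IrrCharacter G)] [DecidableEq G]

theorem sum_irr_eq_trans (a b : G) :
    ∑ χ : IrrCharacter G, (χ : G → ℂ) a * conj ((χ : G → ℂ) b) =
      ∑ x : G, if x * a * x⁻¹ = b then (1 : ℂ) else 0 := by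
  classical
  rw [S0145.sum_irr_mul_conj, ← Finset.sum_filter, Finset.sum_const, nsmul_eq_mul, mul_one]
  split
  · rename_i h
    obtain ⟨c, hc⟩ := isConj_iff.1 h
    congr 1
    rw [Nat.card_eq_fintype_card, ← Fintype.card_coe]
    refine Fintype.card_congr ⟨fun x => ⟨x.1 * c, ?_⟩, fun x => ⟨x.1 * c⁻¹, ?_⟩, fun x => ?_,
      fun x => ?_⟩
    · have h1 := Subgroup.mem_centralizer_singleton_iff.1 x.2
      simp only [Finset.mem_filter, Finset.mem_univ, true_and]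
      have : (x.1 * c) * a * (x.1 * c)⁻¹ = x.1 * (c * a * c⁻¹) * x.1⁻¹ := by group
      rw [this, hc, h1, mul_inv_cancel_right]
    · have h1 : x.1 * a * x.1⁻¹ = b := by
        have := x.2
        simpa only [Finset.mem_filter, Finset.mem_univ, true_and] using this
      rw [Subgroup.mem_centralizer_singleton_iff]
      calc x.1 * c⁻¹ * b = x.1 * c⁻¹ * (c * a * c⁻¹) := by rw [hc]
        _ = x.1 * a * x.1⁻¹ * (x.1 * c⁻¹) := by group
        _ = b * (x.1 * c⁻¹) := by rw [h1]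
    · exact Subtype.ext (by simp)
    · exact Subtype.ext (by simp)
  · rename_i h
    symm
    rw [Nat.cast_eq_zero, Finset.card_eq_zero, Finset.filter_eq_empty_iff]
    intro x _ hx
    exact h (isConj_iff.2 ⟨x, hx⟩)

theorem sum_norm_sq {ι : Type*} [Fintype ι] (s : ι → G) (f : ι → ℂ) :
    ∑ χ : IrrCharacter G, ((‖∑ i, (χ : G → ℂ) (s i) * f i‖ ^ 2 : ℝ) : ℂ) =
      ∑ i, ∑ j, ∑ x : G, (if x * s i * x⁻¹ = s j then (1 : ℂ) else 0) * (f i * conj (f j)) := by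
  have h1 : ∀ χ : IrrCharacter G, ((‖∑ i, (χ : G → ℂ) (s i) * f i‖ ^ 2 : ℝ) : ℂ) =
      ∑ i, ∑ j, ((χ : G → ℂ) (s i) * conj ((χ : G → ℂ) (s j))) * (f i * conj (f j)) := by
    intro χ
    rw [Complex.ofReal_pow, ← Complex.mul_conj', map_sum, Finset.sum_mul_sum]
    refine Finset.sum_congr rfl fun i _ => Finset.sum_congr rfl fun j _ => ?_
    rw [map_mul]
    ring
  simp only [h1]
  rw [Finset.sum_comm]
  refine Finset.sum_congr rfl fun i _ => ?_
  rw [Finset.sum_comm]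
  refine Finset.sum_congr rfl fun j _ => ?_
  rw [← Finset.sum_mul, sum_irr_eq_trans, Finset.sum_mul]

end Gen

section A

variable {G : Type u} [Group G]

/-- The centralizer of `u` in `H`. -/
def Fx (H : Subgroup G) (u : G) : Subgroup G := H ⊓ Subgroup.centralizer {u}

theorem mem_Fx {H : Subgroup G} {u g : G} : g ∈ Fx H u ↔ g ∈ H ∧ g * u = u * g := by
  rw [Fx, Subgroup.mem_inf, Subgroup.mem_centralizer_singleton_iff]

/-- The functional. -/
noncomputable def fA (K F : Subgroup G) [Fintype K] [Fintype F] (u : G) (f : F → ℂ) (χ : G → ℂ) :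
    ℂ := (Nat.card F : ℂ)⁻¹ * ((Nat.card K : ℂ)⁻¹ * ∑ i : F × K, χ (i.2 * u * i.1) * f i.1)

variable [Fintype G] [Fintype (IrrCharacter G)] {p : ℕ} [hp : Fact p.Prime]
  {P K H : Subgroup G} {u : G}

theorem Cf.sum_fA (c : Cf p P K H u) [Fintype K] [Fintype (Fx H u)] (f : Fx H u → ℂ)
    (hf : IsClassFunction (Fx H u) f) :
    ∑ χ : IrrCharacter G, ‖fA K (Fx H u) u f (χ : G → ℂ)‖ ^ 2 =
      (Nat.card (Fx H u) : ℝ)⁻¹ * ((Nat.card K : ℝ)⁻¹ * ∑ g : Fx H u, ‖f g‖ ^ 2 *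
        (Nat.card {v : P // (v : G) * g * (v : G)⁻¹ * (g : G)⁻¹ ∈ K} : ℝ)) := by
  classical
  -- the number of the pairs
  have hcard : ∀ i : Fx H u × K, Nat.card {y : G × (Fx H u × K) //
      y.1 * ((i.2 : G) * u * i.1) * y.1⁻¹ = (y.2.2 : G) * u * y.2.1} =
      Nat.card (Fx H u) * Nat.card {v : P // (v : G) * i.1 * (v : G)⁻¹ * (i.1 : G)⁻¹ ∈ K} := by
    rintro ⟨g, k⟩
    have hg := mem_Fx.1 g.2
    rw [← Nat.card_prod]
    have hex : ∀ y : Fx H u × {v : P // (v : G) * g * (v : G)⁻¹ * (g : G)⁻¹ ∈ K},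
        ∃ k' ∈ K, ((y.1 : G) * (y.2.1 : G)) * ((k : G) * u * g) * ((y.1 : G) * (y.2.1 : G))⁻¹ =
          k' * u * ((y.1 : G) * g * (y.1 : G)⁻¹) := fun y =>
      c.fus_conv k.2 hg.1 (mem_Fx.1 y.1.2).1 (mem_Fx.1 y.1.2).2 y.2.1.2 y.2.2
    choose k' hk' e using hex
    symm
    refine Nat.card_congr (Equiv.ofBijective (fun y => ⟨((y.1 : G) * (y.2.1 : G),
      (y.1 * g * y.1⁻¹, ⟨k' y, hk' y⟩)), e y⟩) ⟨?_, ?_⟩)
    · intro y z hyz
      have h1 : (y.1 : G) * (y.2.1 : G) = (z.1 : G) * (z.2.1 : G) :=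
        congrArg (fun w => w.1.1) hyz
      have h2 : (z.1 : G)⁻¹ * (y.1 : G) = (z.2.1 : G) * (y.2.1 : G)⁻¹ := by
        rw [eq_mul_inv_iff_mul_eq, mul_assoc, h1, inv_mul_cancel_left]
      have h3 : (z.1 : G)⁻¹ * (y.1 : G) = 1 := by
        refine c.dis _ ?_ (mul_mem (inv_mem (mem_Fx.1 z.1.2).1) (mem_Fx.1 y.1.2).1)
        rw [h2]
        exact mul_mem z.2.1.2 (inv_mem y.2.1.2)
      have h4 : (y.1 : G) = z.1 := (inv_mul_eq_one.1 h3).symm
      have h5 : (y.2.1 : G) = z.2.1 := by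
        rw [h4] at h1
        exact mul_left_cancel h1
      exact Prod.ext (Subtype.ext h4) (Subtype.ext (Subtype.ext h5))
    · rintro ⟨⟨x, g', k₁⟩, hx⟩
      have hg' := mem_Fx.1 g'.2
      obtain ⟨h, hh, hhu, v, hv, e1, e2, e3⟩ :=
        c.fus k.2 hg.1 hg.2 k₁.2 hg'.1 hg'.2 hx
      refine ⟨(⟨h, mem_Fx.2 ⟨hh, hhu⟩⟩, ⟨⟨v, hv⟩, e3⟩), ?_⟩
      apply Subtype.ext
      refine Prod.ext e1.symm (Prod.ext (Subtype.ext e2) (Subtype.ext ?_))
      have h6 := e (⟨h, mem_Fx.2 ⟨hh, hhu⟩⟩, ⟨⟨v, hv⟩, e3⟩)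
      change (h * v) * _ * (h * v)⁻¹ = _ * u * (h * g * h⁻¹) at h6
      rw [← e1] at h6
      have h7 : x * ((k : G) * u * g) * x⁻¹ = (k₁ : G) * u * g' := hx
      rw [h7, e2] at h6
      exact (mul_right_cancel (mul_right_cancel h6)).symm
  have hpair : ∀ i : Fx H u × K, ∑ j : Fx H u × K, ∑ x : G,
      (if x * ((i.2 : G) * u * i.1) * x⁻¹ = (j.2 : G) * u * j.1 then (1 : ℂ) else 0) *
        (f i.1 * conj (f j.1)) = ((‖f i.1‖ ^ 2 : ℝ) : ℂ) * ((Nat.card (Fx H u) : ℂ) *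
          (Nat.card {v : P // (v : G) * i.1 * (v : G)⁻¹ * (i.1 : G)⁻¹ ∈ K} : ℂ)) := by
    rintro ⟨g, k⟩
    have hg := mem_Fx.1 g.2
    have h1 := hcard (g, k)
    rw [Nat.card_eq_fintype_card, Fintype.card_subtype] at h1
    rw [Finset.sum_comm, ← Fintype.sum_prod_type' (fun (x : G) (j : Fx H u × K) =>
      (if x * ((k : G) * u * g) * x⁻¹ = (j.2 : G) * u * j.1 then (1 : ℂ) else 0) *
        (f g * conj (f j.1)))]
    have h2 : ∀ y : G × (Fx H u × K),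
        (if y.1 * ((k : G) * u * g) * y.1⁻¹ = (y.2.2 : G) * u * y.2.1 then (1 : ℂ) else 0) *
          (f g * conj (f y.2.1)) =
        if y.1 * ((k : G) * u * g) * y.1⁻¹ = (y.2.2 : G) * u * y.2.1 then
          ((‖f g‖ ^ 2 : ℝ) : ℂ) else 0 := by
      intro y
      split
      · rename_i h
        have hg' := mem_Fx.1 y.2.1.2
        obtain ⟨h', hh, hhu, v, hv, e1, e2, e3⟩ :=
          c.fus k.2 hg.1 hg.2 y.2.2.2 hg'.1 hg'.2 h
        have e4 : f y.2.1 = f g := by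
          rw [← hf g ⟨h', mem_Fx.2 ⟨hh, hhu⟩⟩]
          congr 1
          exact Subtype.ext e2.symm
        rw [e4, one_mul, Complex.mul_conj', Complex.ofReal_pow]
      · rw [zero_mul]
    rw [Finset.sum_congr rfl fun y _ => h2 y, ← Finset.sum_filter, Finset.sum_const, h1,
      nsmul_eq_mul]
    push_cast
    ring
  have hmain : ∑ χ : IrrCharacter G, ((‖∑ i : Fx H u × K, (χ : G → ℂ) (i.2 * u * i.1) * f i.1‖ ^ 2
      : ℝ) : ℂ) = (Nat.card K : ℂ) * ((Nat.card (Fx H u) : ℂ) * ∑ g : Fx H u,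
        ((‖f g‖ ^ 2 : ℝ) : ℂ) *
          (Nat.card {v : P // (v : G) * g * (v : G)⁻¹ * (g : G)⁻¹ ∈ K} : ℂ)) := by
    rw [sum_norm_sq (fun i : Fx H u × K => (i.2 : G) * u * i.1) (fun i => f i.1)]
    rw [Finset.sum_congr rfl fun i _ => hpair i, Fintype.sum_prod_type]
    simp only [Finset.sum_const, Finset.card_univ, nsmul_eq_mul, ← Nat.card_eq_fintype_card]
    rw [← Finset.mul_sum, Finset.mul_sum (a := (Nat.card (Fx H u) : ℂ))]
    congr 1
    refine Finset.sum_congr rfl fun g _ => ?_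
    ring
  have hF0 : (Nat.card (Fx H u) : ℂ) ≠ 0 := by exact_mod_cast Nat.card_pos.ne'
  have hK0 : (Nat.card K : ℂ) ≠ 0 := by exact_mod_cast Nat.card_pos.ne'
  have hkey : ((∑ χ : IrrCharacter G, ‖fA K (Fx H u) u f (χ : G → ℂ)‖ ^ 2 : ℝ) : ℂ) =
      (((Nat.card (Fx H u) : ℝ)⁻¹ * ((Nat.card K : ℝ)⁻¹ * ∑ g : Fx H u, ‖f g‖ ^ 2 *
        (Nat.card {v : P // (v : G) * g * (v : G)⁻¹ * (g : G)⁻¹ ∈ K} : ℝ)) : ℝ) : ℂ) := by
    have h1 : ∀ χ : IrrCharacter G, ‖fA K (Fx H u) u f (χ : G → ℂ)‖ ^ 2 =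
        ((Nat.card (Fx H u) : ℝ)⁻¹ * (Nat.card K : ℝ)⁻¹) ^ 2 *
          ‖∑ i : Fx H u × K, (χ : G → ℂ) (i.2 * u * i.1) * f i.1‖ ^ 2 := by
      intro χ
      rw [fA, norm_mul, norm_mul, norm_inv, norm_inv, Complex.norm_natCast, Complex.norm_natCast]
      ring
    simp only [h1]
    rw [← Finset.mul_sum, Complex.ofReal_mul, Complex.ofReal_sum, hmain]
    push_cast
    field_simp
  exact_mod_cast hkey

end A

end Cfsg.Agent.H657.TIB
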